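import Cfsg.Agent.Lib.SchurMult.O73.Data
import Cfsg.Agent.Lib.Classes.OmegaSeven.Mono
import Cfsg.Agent.Lib.SpSixTwo.Clifford

/-!
Decoding of the tables for the triple cover of `Ω₇(3)`, and the elementary facts read off from them.
-/

set_option autoImplicit false
set_option linter.unusedSectionVars false

namespace CfsgLib.SchurMult.O73

open CfsgLib.SpSixTwo (K M8)
open Matrix

/-- Seven coordinates. -/
abbrev V7 := Fin 7 → K

/-- The vector with a given code. -/
def decV (n : ℕ) : V7 := fun i => ((n / 3 ^ i.val % 3 : ℕ) : K)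

/-- The code of a vector. -/
def encV (v : V7) : ℕ :=
  (v 0).val + 3 * (v 1).val + 9 * (v 2).val + 27 * (v 3).val + 81 * (v 4).val + 243 * (v 5).val +
    729 * (v 6).val

/-- The code of the vector of a line. -/
def vecC (d : ℕ) : ℕ := vecPack >>> (12 * d) &&& 4095

/-- The vector of a line. -/
def vec (d : Fin 378) : V7 := decV (vecC d.val)

/-- The line of a vector. -/
def idxV (v : V7) : Fin 378 := Fin.ofNat 378 (idxPack >>> (9 * encV v) &&& 511)

/-- The permutation of a generator, on numbers. -/
def permN (j : Fin 3) (d : ℕ) : ℕ := permPack.getD j.val 0 >>> (9 * d) &&& 511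

/-- The permutation of a generator. -/
def permF (j : Fin 3) (d : Fin 378) : Fin 378 := Fin.ofNat 378 (permN j d.val)

/-- The shift of a generator, on numbers. -/
def shiftN (j : Fin 3) (d : ℕ) : ℕ := shiftPack.getD j.val 0 >>> (2 * d) &&& 3

/-- The shift of a generator. -/
def shiftF (j : Fin 3) (d : Fin 378) : K := (shiftN j d.val : K)

/-- The inverse of a generator. -/
def invJ : Fin 3 → Fin 3
  | 0 => 0
  | 1 => 2
  | 2 => 1

/-- The product of a matrix given by the codes of its rows with a coded vector. -/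
def dotC (r v : ℕ) : ℕ :=
  (r % 3 * (v % 3) + r / 3 % 3 * (v / 3 % 3) + r / 9 % 3 * (v / 9 % 3) + r / 27 % 3 * (v / 27 % 3) +
    r / 81 % 3 * (v / 81 % 3) + r / 243 % 3 * (v / 243 % 3) + r / 729 % 3 * (v / 729 % 3)) % 3

/-- The row codes of a generator. -/
def rowC (j : Fin 3) (i : ℕ) : ℕ := (matTab.getD j.val []).getD i 0

/-- The action of a generator on codes. -/
def mvC (j : Fin 3) (v : ℕ) : ℕ :=
  dotC (rowC j 0) v + 3 * dotC (rowC j 1) v + 9 * dotC (rowC j 2) v + 27 * dotC (rowC j 3) v +
    81 * dotC (rowC j 4) v + 243 * dotC (rowC j 5) v + 729 * dotC (rowC j 6) v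

/-- The matrix of a generator. -/
def matF (j : Fin 3) : Matrix (Fin 7) (Fin 7) K := Matrix.of fun i k => decV (rowC j i.val) k

/-- The spinor matrix of a generator. -/
def spinF (j : Fin 3) : M8 :=
  Matrix.of fun a b => (((spinTab.getD j.val []).getD a.val 0 / 3 ^ b.val % 3 : ℕ) : K)

/-- The label of an ordered pair of lines plus one, or zero if they are not orthogonal. -/
def nbN (M e : ℕ) : ℕ := M >>> (2 * e) &&& 3

/-- The row of labels of a line. -/
def nbRow (d : ℕ) : ℕ := nbTab.getD d 0

/-- Two lines are neighbours with a given label. -/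
def Adj (d e : Fin 378) (c : K) : Prop := nbN (nbRow d.val) e.val = c.val + 1

theorem decV_dotC (r v : ℕ) : (dotC r v : K) = ∑ k, decV r k * decV v k := by
  simp only [dotC, ZMod.natCast_mod, Nat.cast_add, Nat.cast_mul, decV, Fin.sum_univ_seven]
  norm_num

theorem decV_mvC (j : Fin 3) (v : ℕ) : decV (mvC j v) = matF j *ᵥ decV v := by
  funext i
  have h : ∀ k : ℕ, dotC (rowC j k) v < 3 := fun k => Nat.mod_lt _ (by norm_num)
  have e : mvC j v / 3 ^ i.val % 3 = dotC (rowC j i.val) v := by
    have h0 := h 0; have h1 := h 1; have h2 := h 2; have h3 := h 3; have h4 := h 4; have h5 := h 5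
    have h6 := h 6
    unfold mvC
    fin_cases i <;> simp <;> omega
  show ((mvC j v / 3 ^ i.val % 3 : ℕ) : K) = _
  rw [e, decV_dotC]
  rfl

theorem idxV_vec : ∀ d : Fin 378, idxV (vec d) = d ∧ idxV (-vec d) = d := by decide +kernel

theorem vec_sq : ∀ d : Fin 378, CfsgLib.SpSixTwo.dotK (vec d) (vec d) = 2 := by decide +kernel

theorem vec_inj {d e : Fin 378} (h : vec d = vec e ∨ vec d = -vec e) : d = e := by
  rcases h with h | h
  · rw [← (idxV_vec d).1, h, (idxV_vec e).1]
  · rw [← (idxV_vec d).1, h, (idxV_vec e).2]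

theorem permF_inv : ∀ (j : Fin 3) (d : Fin 378), permF (invJ j) (permF j d) = d := by decide +kernel

theorem shiftF_inv : ∀ (j : Fin 3) (d : Fin 378), shiftF (invJ j) (permF j d) = shiftF j d := by
  decide +kernel

/-- The equivariance test on codes. -/
def lineOK (j : Fin 3) (d : Fin 378) : Bool :=
  mvC j (vecC d.val) == vecC (permF j d).val ||
    decide (decV (mvC j (vecC d.val)) = -decV (vecC (permF j d).val))

theorem lineOK_all : ∀ (j : Fin 3) (d : Fin 378), lineOK j d = true := by decide +kernel

theorem mat_vec (j : Fin 3) (d : Fin 378) :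
    matF j *ᵥ vec d = vec (permF j d) ∨ matF j *ᵥ vec d = -vec (permF j d) := by
  have h := lineOK_all j d
  simp only [lineOK, Bool.or_eq_true, beq_iff_eq, decide_eq_true_eq] at h
  rw [vec, ← decV_mvC]
  rcases h with h | h
  · exact Or.inl (congrArg decV h)
  · exact Or.inr h

end CfsgLib.SchurMult.O73
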