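import Cfsg.Agent.Lib.SchurMult.O73.Five
import Cfsg.Agent.Lib.SchurMult.Criterion
import Cfsg.Agent.S2092

/-!
The `3`-part of a central extension of a group containing `3^5 : Ω₅(3)`: the commutator subgroup of the
preimage meets a kernel of `3`-elements in at most three elements.
-/

set_option autoImplicit false
set_option linter.unusedSectionVars false

namespace CfsgLib.SchurMult.O73.Five

open CfsgLib.ClassicalForms
open scoped commutatorElement Pointwise

/-- The exponent-three module written multiplicatively. -/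
abbrev MW := Multiplicative W

/-- The data of a central extension with kernel of `3`-power exponent of a group containing `W : Ω₅(3)`. -/
structure Setting {G Γ : Type*} [Group G] [Group Γ] (σ : Γ →* G) (E : MW →* G) (lam : Om5 →* G) : Prop where
  surj : Function.Surjective σ
  central : σ.ker ≤ Subgroup.center Γ
  three : ∃ k : ℕ, ∀ z ∈ σ.ker, z ^ 3 ^ k = 1
  inj : Function.Injective E
  conj : ∀ (g : Om5) (w : W),
    lam g * E (Multiplicative.ofAdd w) * (lam g)⁻¹ = E (Multiplicative.ofAdd ((g.1 : W ≃ₗ[K] W) w))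
  disj : ∀ (g : Om5) (w : MW), lam g = E w → g = 1

namespace Setting

variable {G Γ : Type} [Group G] [Group Γ] {σ : Γ →* G} {E : MW →* G} {lam : Om5 →* G}
  (S : Setting σ E lam)

local notation "oA" => Multiplicative.ofAdd

include S

theorem kc {z : Γ} (hz : z ∈ σ.ker) (g : Γ) : g * z = z * g :=
  Subgroup.mem_center_iff.1 (S.central hz) g

theorem ker_sq {z : Γ} (hz : z ∈ σ.ker) (h : z * z = 1) : z = 1 := by
  obtain ⟨k, hk⟩ := S.three
  have h2 : orderOf z ∣ 2 := orderOf_dvd_of_pow_eq_one (by rw [pow_two, h])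
  have hco : Nat.Coprime 2 (3 ^ k) := Nat.Coprime.pow_right k (by decide)
  have := Nat.dvd_gcd h2 (orderOf_dvd_of_pow_eq_one (hk z hz))
  rw [hco.gcd_eq_one, Nat.dvd_one] at this
  exact orderOf_eq_one_iff.1 this

theorem ker_sqrt {z : Γ} (hz : z ∈ σ.ker) : ∃ y ∈ σ.ker, y * y = z := by
  obtain ⟨k, hk⟩ := S.three
  obtain ⟨m, hm⟩ : Odd (3 ^ k) := Odd.pow (by decide)
  refine ⟨z ^ (m + 1), pow_mem hz _, ?_⟩
  rw [← pow_add, show m + 1 + (m + 1) = 3 ^ k + 1 by omega, pow_succ, hk z hz, one_mul]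

theorem conj_eq {T T' : Γ} (h : σ T = σ T') (x : Γ) : T * x * T⁻¹ = T' * x * T'⁻¹ := by
  have hz : T'⁻¹ * T ∈ σ.ker := by rw [MonoidHom.mem_ker, map_mul, map_inv, h, inv_mul_cancel]
  have e : T = T' * (T'⁻¹ * T) := (mul_inv_cancel_left _ _).symm
  conv_lhs => rw [e]
  rw [mul_inv_rev, mul_assoc T', ← S.kc hz x]
  group

theorem map_conj {T x : Γ} {g : Om5} {w : W} (hT : σ T = lam g) (hx : σ x = E (oA w)) :
    σ (T * x * T⁻¹) = E (oA ((g.1 : W ≃ₗ[K] W) w)) := by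
  rw [map_mul, map_mul, map_inv, hT, hx, S.conj]

/-- An element fixing the image of a lift fixes the lift. -/
theorem fix_lift {T x : Γ} {t : Om5} (ht : t * t = 1) {w : W} (hw : (t.1 : W ≃ₗ[K] W) w = w)
    (hT : σ T = lam t) (hx : σ x = E (oA w)) : T * x * T⁻¹ = x := by
  set z := x⁻¹ * (T * x * T⁻¹)
  have hz : z ∈ σ.ker := by
    rw [MonoidHom.mem_ker, map_mul, map_inv, S.map_conj hT hx, hw, hx, inv_mul_cancel]
  have e1 : T * x * T⁻¹ = x * z := (mul_inv_cancel_left _ _).symm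
  have e2 : (T * T) * x * (T * T)⁻¹ = x := by
    rw [S.conj_eq (T' := 1) (by rw [map_mul, hT, ← map_mul, ht, map_one, map_one]) x]
    group
  have e3 : (T * T) * x * (T * T)⁻¹ = x * (z * z) := by
    calc (T * T) * x * (T * T)⁻¹ = T * (T * x * T⁻¹) * T⁻¹ := by group
      _ = T * (x * z) * T⁻¹ := by rw [e1]
      _ = (T * x * T⁻¹) * (T * z * T⁻¹) := by group
      _ = x * z * z := by rw [e1, S.kc hz T, mul_inv_cancel_right]
      _ = x * (z * z) := mul_assoc _ _ _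
  rw [e2, eq_comm, mul_eq_left] at e3
  rw [e1, S.ker_sq hz e3, mul_one]

/-- An element is inverted by the lifts of `t`. -/
def Inv (_ : Setting σ E lam) (t : Om5) (x : Γ) : Prop := ∀ T, σ T = lam t → T * x * T⁻¹ = x⁻¹

theorem Inv.inv_mem {t : Om5} {x : Γ} (h : S.Inv t x) : S.Inv t x⁻¹ := fun T hT => by
  rw [show T * x⁻¹ * T⁻¹ = (T * x * T⁻¹)⁻¹ by group, h T hT]

theorem inv_unique {t : Om5} {x y : Γ} (h : σ x = σ y) (hx : S.Inv t x) (hy : S.Inv t y) : x = y := by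
  obtain ⟨T, hT⟩ := S.surj (lam t)
  set z := x⁻¹ * y
  have hz : z ∈ σ.ker := by rw [MonoidHom.mem_ker, map_mul, map_inv, h, inv_mul_cancel]
  have hy' : y = x * z := (mul_inv_cancel_left _ _).symm
  have e := hy T hT
  rw [hy', show T * (x * z) * T⁻¹ = (T * x * T⁻¹) * (T * z * T⁻¹) by group, hx T hT, S.kc hz T,
    mul_inv_cancel_right, mul_inv_rev, S.kc hz x⁻¹, mul_left_inj] at e
  rw [hy', S.ker_sq hz (by nth_rewrite 1 [e]; rw [inv_mul_cancel]), mul_one]

theorem exists_inv {t : Om5} (ht : t * t = 1) {w : W} (hw : (t.1 : W ≃ₗ[K] W) w = -w) :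
    ∃ x, σ x = E (oA w) ∧ S.Inv t x := by
  obtain ⟨T, hT⟩ := S.surj (lam t)
  obtain ⟨x, hx⟩ := S.surj (E (oA w))
  set z := x * (T * x * T⁻¹)
  have hz : z ∈ σ.ker := by
    rw [MonoidHom.mem_ker, map_mul, S.map_conj hT hx, hw, hx, ← map_mul, ← ofAdd_add, add_neg_cancel,
      ofAdd_zero, map_one]
  obtain ⟨y, hy, hyy⟩ := S.ker_sqrt hz
  refine ⟨x * y⁻¹, by rw [map_mul, map_inv, MonoidHom.mem_ker.1 hy, inv_one, mul_one, hx], fun U hU => ?_⟩
  rw [S.conj_eq (hU.trans hT.symm)]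
  have hy' : y⁻¹ ∈ σ.ker := inv_mem hy
  have e1 : T * x * T⁻¹ = x⁻¹ * z := (inv_mul_cancel_left _ _).symm
  rw [show T * (x * y⁻¹) * T⁻¹ = (T * x * T⁻¹) * (T * y⁻¹ * T⁻¹) by group, e1, S.kc hy' T,
    mul_inv_cancel_right, ← hyy, mul_inv_rev, inv_inv, mul_assoc x⁻¹, mul_inv_cancel_right,
    S.kc hy x⁻¹]

/-- Being inverted does not depend on the inverting involution among commuting ones. -/
theorem inv_change {t s : Om5} (hst : Commute s t) {w : W} (hsw : (s.1 : W ≃ₗ[K] W) w = -w) {x : Γ}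
    (hx : σ x = E (oA w)) (h : S.Inv t x) : S.Inv s x := fun U hU => by
  refine S.inv_unique (t := t) ?_ (fun T hT => ?_) (Inv.inv_mem S h)
  · rw [S.map_conj hU hx, hsw, map_inv, hx, ← map_inv, ofAdd_neg]
  · obtain ⟨T0, hT0⟩ := S.surj (lam t)
    have e : σ (U⁻¹ * T * U) = lam t := by
      rw [map_mul, map_mul, map_inv, hU, hT, ← map_inv, ← map_mul, ← map_mul, mul_assoc, ← hst.eq,
        inv_mul_cancel_left]
    calc T * (U * x * U⁻¹) * T⁻¹ = U * ((U⁻¹ * T * U) * x * (U⁻¹ * T * U)⁻¹) * U⁻¹ := by group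
      _ = U * x⁻¹ * U⁻¹ := by rw [h _ e]
      _ = (U * x * U⁻¹)⁻¹ := by group

theorem inv_conj {t : Om5} {x g : Γ} {h : Om5} (hg : σ g = lam h) (hx : S.Inv t x) :
    S.Inv (h * t * h⁻¹) (g * x * g⁻¹) := fun T hT => by
  have e : σ (g⁻¹ * T * g) = lam t := by
    rw [map_mul, map_mul, map_inv, hg, hT, map_mul, map_mul, map_inv]; group
  calc T * (g * x * g⁻¹) * T⁻¹ = g * ((g⁻¹ * T * g) * x * (g⁻¹ * T * g)⁻¹) * g⁻¹ := by group
    _ = g * x⁻¹ * g⁻¹ := by rw [hx _ e]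
    _ = (g * x * g⁻¹)⁻¹ := by group

theorem cube_of_inv {t : Om5} {x : Γ} {w : W} (hx : σ x = E (oA w)) (h : S.Inv t x) : x ^ 3 = 1 := by
  obtain ⟨T, hT⟩ := S.surj (lam t)
  have hker : x ^ 3 ∈ σ.ker := by
    rw [MonoidHom.mem_ker, map_pow, hx, ← map_pow, ← ofAdd_nsmul,
      show (3 : ℕ) • w = 0 from funext fun i => by
        rw [Pi.smul_apply, nsmul_eq_mul, show ((3 : ℕ) : K) = 0 by decide, zero_mul]; rfl, ofAdd_zero, map_one]
  refine S.ker_sq hker ?_
  have e : T * x ^ 3 * T⁻¹ = (x ^ 3)⁻¹ := by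
    rw [← conj_pow, h T hT, inv_pow]
  rw [S.kc hker T, mul_inv_cancel_right] at e
  nth_rewrite 1 [e]
  rw [inv_mul_cancel]

omit S

/-- The involution of a coordinate. -/
def tI (i : Fin 5) : Om5 := ⟨T (ev i) (ev_one i), T_mem _⟩

/-- The involution of four ones. -/
def tB : Om5 := ⟨T bb bb_one, T_mem _⟩

theorem tI_sq (i : Fin 5) : tI i * tI i = 1 := Subtype.ext (T_sq _)

theorem tB_sq : tB * tB = 1 := Subtype.ext (T_sq _)

theorem tI_neg {i j : Fin 5} (h : j ≠ i) : ((tI i).1 : W ≃ₗ[K] W) (ev j) = -ev j :=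
  T_neg _ (by rw [dt_ev, if_neg h])

theorem T_comm {a c : W} (ha : dt a a = 1) (hc : dt c c = 1) (h : dt a c = 0) :
    T a ha * T c hc = T c hc * T a ha := by
  have e := conj_T (T c hc) (a := a) (b := a) ha ha (Or.inr (T_neg hc h))
  rw [mul_inv_eq_iff_eq_mul] at e
  exact e.symm

theorem tI_comm (i j : Fin 5) : Commute (tI i) (tI j) := by
  by_cases h : i = j
  · rw [h]
  · exact Subtype.ext (T_comm _ _ (by rw [dt_ev, if_neg h]))

include S

theorem exists_ell (i : Fin 5) : ∃ x, σ x = E (oA (ev i)) ∧ ∀ j, i ≠ j → S.Inv (tI j) x := by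
  obtain ⟨x, hx, hi⟩ := S.exists_inv (tI_sq (i + 1)) (w := ev i)
    (tI_neg ((by decide : ∀ i : Fin 5, i ≠ i + 1) i))
  exact ⟨x, hx, fun j hj => S.inv_change (tI_comm j (i + 1)) (tI_neg hj) hx hi⟩

/-- The lift of a coordinate vector. -/
noncomputable def ell (i : Fin 5) : Γ := (S.exists_ell i).choose

theorem map_ell (i : Fin 5) : σ (S.ell i) = E (oA (ev i)) := (S.exists_ell i).choose_spec.1

theorem inv_ell {i j : Fin 5} (h : i ≠ j) : S.Inv (tI j) (S.ell i) := (S.exists_ell i).choose_spec.2 j h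

theorem ell_cube (i : Fin 5) : S.ell i ^ 3 = 1 :=
  S.cube_of_inv (S.map_ell i) (S.inv_ell ((by decide : ∀ i : Fin 5, i ≠ i + 1) i))

theorem ell_comm {i j : Fin 5} (hij : i ≠ j) : Commute (S.ell i) (S.ell j) := by
  obtain ⟨T, hT⟩ := S.surj (lam (tI i))
  have h1 := S.fix_lift (tI_sq i) (T_self _) hT (S.map_ell i)
  have h2 := S.inv_ell hij.symm T hT
  have hb : ⁅S.ell i, S.ell j⁆ ∈ σ.ker := by
    rw [MonoidHom.mem_ker, map_commutatorElement, S.map_ell, S.map_ell, commutatorElement_eq_one_iff_commute]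
    exact (Commute.all _ _).map E
  have e : ⁅S.ell i, (S.ell j)⁻¹⁆ = ⁅S.ell i, S.ell j⁆ := by
    have := conjugate_commutatorElement (S.ell i) (S.ell j) T
    rw [h1, h2] at this
    rw [← this, S.kc hb T, mul_inv_cancel_right]
  have e2 : ⁅S.ell i, (S.ell j)⁻¹⁆ = ⁅S.ell i, S.ell j⁆⁻¹ := by
    have : ⁅S.ell i, (S.ell j)⁻¹⁆ = (S.ell j)⁻¹ * ⁅S.ell i, S.ell j⁆⁻¹ * S.ell j := by
      simp only [commutatorElement_def]; group
    rw [this, S.kc (inv_mem hb), inv_mul_cancel_right]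
  rw [← commutatorElement_eq_one_iff_commute]
  exact S.ker_sq hb (by nth_rewrite 1 [← e, e2]; rw [inv_mul_cancel])

/-- The powers of one coordinate lift. -/
noncomputable def lineHom (i : Fin 5) : Multiplicative K →* Γ :=
  AddMonoidHom.toMultiplicativeLeft (ZMod.lift 3 ⟨zmultiplesHom (Additive Γ) (Additive.ofMul (S.ell i)), by
    show (3 : ℤ) • Additive.ofMul (S.ell i) = 0
    refine Additive.toMul.injective ?_
    show S.ell i ^ (3 : ℤ) = 1
    exact_mod_cast S.ell_cube i⟩)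

theorem lineHom_one (i : Fin 5) : S.lineHom i (oA (1 : K)) = S.ell i := by
  show ((ZMod.lift 3 _ : K →+ Additive Γ) (((1 : ℤ) : K))).toMul = S.ell i
  rw [ZMod.lift_coe]
  show ((1 : ℤ) • Additive.ofMul (S.ell i)).toMul = _
  rw [one_zsmul]; rfl

theorem lineHom_mem (i : Fin 5) (a : Multiplicative K) : S.lineHom i a ∈ Subgroup.zpowers (S.ell i) := by
  obtain ⟨n, hn⟩ := ZMod.intCast_surjective (Multiplicative.toAdd a)
  rw [show a = oA ((n : ℤ) : K) by rw [hn]; rfl]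
  refine ⟨n, ?_⟩
  show S.ell i ^ n = ((ZMod.lift 3 _ : K →+ Additive Γ) ((n : ℤ) : K)).toMul
  rw [ZMod.lift_coe]; rfl

/-- The lift of the module. -/
noncomputable def Lam : MW →* Γ :=
  (MonoidHom.noncommPiCoprod (fun i => S.lineHom i) fun i j hij a b => by
    obtain ⟨m, hm⟩ := S.lineHom_mem i a
    obtain ⟨n, hn⟩ := S.lineHom_mem j b
    rw [← hm, ← hn]
    exact (S.ell_comm hij).zpow_zpow m n).comp
    { toFun := fun w i => oA (Multiplicative.toAdd w i)
      map_one' := rfl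
      map_mul' := fun _ _ => rfl }

theorem Lam_ev (i : Fin 5) : S.Lam (oA (ev i)) = S.ell i := by
  have e : (fun j => oA (ev i j)) = (Pi.mulSingle i (oA (1 : K)) : Fin 5 → Multiplicative K) := by
    funext j
    by_cases h : j = i
    · subst h; rw [Pi.mulSingle_eq_same, ev, Pi.single_eq_same]
    · rw [Pi.mulSingle_eq_of_ne h, ev, Pi.single_eq_of_ne h]; rfl
  simp only [Lam, MonoidHom.comp_apply, MonoidHom.coe_mk, OneHom.coe_mk, toAdd_ofAdd]
  rw [e]
  exact (MonoidHom.noncommPiCoprod_mulSingle _ i _).trans (S.lineHom_one i)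

omit S in
theorem hom_ext_ev {H : Type*} [Group H] {f f' : MW →* H} (h : ∀ i, f (oA (ev i)) = f' (oA (ev i)))
    (w : MW) : f w = f' w := by
  have hw : w ∈ Subgroup.closure (Set.range fun i => oA (ev i)) := by
    have : ∀ x : W, x = (x 0).val • ev 0 + (x 1).val • ev 1 + (x 2).val • ev 2 + (x 3).val • ev 3 +
        (x 4).val • ev 4 := by decide +kernel
    rw [show w = oA (Multiplicative.toAdd w) from rfl, this (Multiplicative.toAdd w)]
    simp only [ofAdd_add, ofAdd_nsmul]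
    refine mul_mem (mul_mem (mul_mem (mul_mem ?_ ?_) ?_) ?_) ?_ <;>
      exact pow_mem (Subgroup.subset_closure (Set.mem_range_self _)) _
  induction hw using Subgroup.closure_induction with
  | mem x hx => obtain ⟨i, rfl⟩ := hx; exact h i
  | one => rw [map_one, map_one]
  | mul x y _ _ hx hy => rw [map_mul, map_mul, hx, hy]
  | inv x _ hx => rw [map_inv, map_inv, hx]

theorem map_Lam (w : MW) : σ (S.Lam w) = E w :=
  hom_ext_ev (f := σ.comp S.Lam) (fun i => by rw [MonoidHom.comp_apply, S.Lam_ev, S.map_ell]) w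

theorem mono_conj {g : Om5} (hg : IsMono g.1) {U : Γ} (hU : σ U = lam g) (w : MW) :
    U * S.Lam w * U⁻¹ = S.Lam (oA ((g.1 : W ≃ₗ[K] W) (Multiplicative.toAdd w))) := by
  obtain ⟨e, π, -, -, hge⟩ := hg
  let f' : MW →* Γ := S.Lam.comp (AddMonoidHom.toMultiplicative (g.1 : W ≃ₗ[K] W).toAddMonoidHom)
  refine hom_ext_ev (f := (MulAut.conj U).toMonoidHom.comp S.Lam) (f' := f') (fun i => ?_) w
  show U * S.Lam (oA (ev i)) * U⁻¹ = S.Lam (oA ((g.1 : W ≃ₗ[K] W) (ev i)))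
  rw [S.Lam_ev]
  obtain ⟨j, hj⟩ := exists_ne i
  have hsign : ∀ l, ∃ s : Bool, (g.1 : W ≃ₗ[K] W) (ev l) = if s then -ev (π l) else ev (π l) := fun l => by
    refine ⟨e (π l), ?_⟩
    rw [hge, mono_ev]
    cases e (π l) <;> simp
  obtain ⟨sj, hsj⟩ := hsign j
  have hc : g * tI j * g⁻¹ = tI (π j) := by
    refine Subtype.ext (conj_T g.1 (ev_one j) (ev_one (π j)) ?_)
    cases sj
    · exact Or.inl hsj
    · exact Or.inr hsj
  have hne : π i ≠ π j := fun h => hj (π.injective h).symm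
  have h1 := S.inv_conj hU (S.inv_ell hj.symm)
  rw [hc] at h1
  obtain ⟨si, hsi⟩ := hsign i
  refine S.inv_unique (t := tI (π j)) (by rw [S.map_conj hU (S.map_ell i), S.map_Lam]) h1 ?_
  rw [hsi]
  cases si
  · show S.Inv _ (S.Lam (oA (ev (π i))))
    rw [S.Lam_ev]; exact S.inv_ell hne
  · show S.Inv _ (S.Lam (oA (-ev (π i))))
    rw [ofAdd_neg, map_inv, S.Lam_ev]; exact Inv.inv_mem S (S.inv_ell hne)

/-- A double transposition moving `w` to `-w` and fixing `bb` makes the lift of `w` inverted. -/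
theorem inv_tB_of_swap {w : W} (hw : dt w bb = 0) {π : Equiv.Perm (Fin 5)} (hπ : Equiv.Perm.sign π = 1)
    (hπb : monoFun (fun _ => false) π bb = bb) (hπw : monoFun (fun _ => false) π w = -w) :
    S.Inv tB (S.Lam (oA w)) := by
  have hg : IsMono (mono (fun _ => false) π) := ⟨_, π, by decide, hπ, rfl⟩
  let g : Om5 := ⟨_, hg.mem⟩
  obtain ⟨U, hU⟩ := S.surj (lam g)
  obtain ⟨x, hx, hxi⟩ := S.exists_inv tB_sq (w := w) (T_neg _ hw)
  have hc : g * tB * g⁻¹ = tB := Subtype.ext (conj_T g.1 bb_one bb_one (Or.inl hπb))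
  have h1 := S.inv_conj hU hxi
  rw [hc] at h1
  have e1 : U * x * U⁻¹ = x⁻¹ := by
    refine S.inv_unique (t := tB) ?_ h1 (Inv.inv_mem S hxi)
    rw [S.map_conj hU hx, map_inv, hx, ← map_inv, ← ofAdd_neg]
    exact congrArg (fun v => E (oA v)) hπw
  have e2 : U * S.Lam (oA w) * U⁻¹ = (S.Lam (oA w))⁻¹ := by
    rw [S.mono_conj (g := g) hg hU, ← map_inv, ← ofAdd_neg]
    exact congrArg (fun v => S.Lam (oA v)) hπw
  set z := (S.Lam (oA w))⁻¹ * x
  have hz : z ∈ σ.ker := by rw [MonoidHom.mem_ker, map_mul, map_inv, S.map_Lam, hx, inv_mul_cancel]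
  have hx' : x = S.Lam (oA w) * z := (mul_inv_cancel_left _ _).symm
  rw [hx', show U * (S.Lam (oA w) * z) * U⁻¹ = (U * S.Lam (oA w) * U⁻¹) * (U * z * U⁻¹) by group, e2,
    S.kc hz U, mul_inv_cancel_right, mul_inv_rev, S.kc hz, mul_left_inj] at e1
  have hz1 : z = 1 := S.ker_sq hz (by nth_rewrite 1 [e1]; rw [inv_mul_cancel])
  rw [hx', hz1, mul_one] at hxi
  exact hxi

/-- The kernel element measuring the defect at the last coordinate. -/
theorem exists_defect : ∃ c ∈ σ.ker, c ^ 3 = 1 ∧ S.Inv tB (S.ell 4 * c) := by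
  obtain ⟨x, hx, hxi⟩ := S.exists_inv tB_sq (w := ev 4) (T_neg _ (by decide +kernel))
  refine ⟨(S.ell 4)⁻¹ * x, ?_, ?_, by rwa [mul_inv_cancel_left]⟩
  · rw [MonoidHom.mem_ker, map_mul, map_inv, S.map_ell, hx, inv_mul_cancel]
  · have hz : (S.ell 4)⁻¹ * x ∈ σ.ker := by rw [MonoidHom.mem_ker, map_mul, map_inv, S.map_ell, hx, inv_mul_cancel]
    have hc : Commute (S.ell 4) ((S.ell 4)⁻¹ * x) := S.kc hz _
    have := hc.mul_pow 3
    rwa [mul_inv_cancel_left, S.cube_of_inv hx hxi, S.ell_cube, one_mul, eq_comm] at this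

omit S in
theorem five_span : ∀ w : W, ∃ a b c d e : K, w =
    a • ev 4 + b • (ev 0 - ev 1) + c • (ev 2 - ev 3) + d • (ev 0 - ev 2) + e • bb := by
  decide +kernel

theorem exists_bound [Finite Γ] :
    ∃ c ∈ σ.ker, c ^ 3 = 1 ∧ ∀ z ∈ ⁅(E.range ⊔ lam.range).comap σ, (E.range ⊔ lam.range).comap σ⁆,
      z ∈ σ.ker → z ∈ Subgroup.zpowers c := by
  obtain ⟨c, hc, hc3, hci⟩ := S.exists_defect
  refine ⟨c, hc, hc3, ?_⟩
  set N := S.Lam.range ⊔ Subgroup.zpowers c with hN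
  -- the normaliser of the lifted module
  let Nm : Subgroup Γ := Subgroup.normalizer (N : Set Γ)
  have hLN : ∀ w, S.Lam w ∈ N := fun w => Subgroup.mem_sup_left ⟨w, rfl⟩
  have hcN : c ∈ N := Subgroup.mem_sup_right (Subgroup.mem_zpowers c)
  have crit : ∀ U : Γ, (∀ w, U * S.Lam w * U⁻¹ ∈ N) → U ∈ Nm := by
    intro U h
    have hle : N ≤ N.comap (MulAut.conj U).toMonoidHom := by
      refine sup_le ?_ (Subgroup.zpowers_le.2 ?_)
      · rintro _ ⟨w, rfl⟩; exact h w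
      · show U * c * U⁻¹ ∈ N
        rw [S.kc hc U, mul_inv_cancel_right]; exact hcN
    have heq : N.map (MulAut.conj U).toMonoidHom = N :=
      Subgroup.eq_of_le_of_card_ge (Subgroup.map_le_iff_le_comap.2 hle)
        (Nat.card_congr (N.equivMapOfInjective _ (MulAut.conj U).injective).toEquiv).le
    refine Subgroup.mem_normalizer_iff.2 fun n => ⟨fun hn => hle hn, fun hn => ?_⟩
    rw [← heq] at hn
    obtain ⟨m, hm, e⟩ := hn
    rwa [show m = n from (MulAut.conj U).injective e] at hm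
  have hker : σ.ker ≤ Nm := fun z hz => crit z fun w => by
    rw [← S.kc hz, mul_inv_cancel_right]; exact hLN w
  -- the generators normalise
  let P : Subgroup Om5 := (Nm.map σ).comap lam
  have hP : ∀ g : Om5, g ∈ P ↔ ∃ U, σ U = lam g ∧ U ∈ Nm := fun g =>
    ⟨fun ⟨U, hU, e⟩ => ⟨U, e, hU⟩, fun ⟨U, e, hU⟩ => ⟨U, hU, e⟩⟩
  have hmono : ∀ g : Om5, IsMono g.1 → g ∈ P := fun g hg => by
    obtain ⟨U, hU⟩ := S.surj (lam g)
    exact (hP g).2 ⟨U, hU, crit U fun w => by rw [S.mono_conj hg hU]; exact hLN _⟩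
  have h0 : (⟨_, T_ev_zero_mem⟩ : Om5) ∈ P := hmono _ ⟨fun i => decide (i ≠ 0), 1, by decide, map_one _,
    orth_ext fun x => by rw [T_apply, mono_apply]; revert x; decide +kernel⟩
  have hb : (⟨_, T_bb_mem⟩ : Om5) ∈ P := by
    obtain ⟨U, hU⟩ := S.surj (lam tB)
    refine (hP _).2 ⟨U, hU, crit U ?_⟩
    let R : Subgroup MW := (N.comap (MulAut.conj U).toMonoidHom).comap S.Lam
    suffices hR : ∀ w : W, oA w ∈ R from fun w => hR (Multiplicative.toAdd w)
    have r4 : oA (ev 4) ∈ R := by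
      show U * S.Lam (oA (ev 4)) * U⁻¹ ∈ N
      have h := hci U hU
      rw [show U * (S.ell 4 * c) * U⁻¹ = (U * S.ell 4 * U⁻¹) * (U * c * U⁻¹) by group, S.kc hc U,
        mul_inv_cancel_right] at h
      rw [S.Lam_ev, eq_mul_inv_of_mul_eq h, ← S.Lam_ev]
      exact mul_mem (inv_mem (mul_mem (hLN _) hcN)) (inv_mem hcN)
    have sw : ∀ (w : W) (π : Equiv.Perm (Fin 5)), dt w bb = 0 → Equiv.Perm.sign π = 1 →
        monoFun (fun _ => false) π bb = bb → monoFun (fun _ => false) π w = -w → oA w ∈ R := by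
      intro w π h1 h2 h3 h4
      show U * S.Lam (oA w) * U⁻¹ ∈ N
      rw [S.inv_tB_of_swap h1 h2 h3 h4 U hU]
      exact inv_mem (hLN _)
    have r01 : oA (ev 0 - ev 1) ∈ R := sw _ (Equiv.swap 0 1 * Equiv.swap 2 3) (by decide +kernel)
      (by decide +kernel) (by decide +kernel) (by decide +kernel)
    have r23 : oA (ev 2 - ev 3) ∈ R := sw _ (Equiv.swap 0 1 * Equiv.swap 2 3) (by decide +kernel)
      (by decide +kernel) (by decide +kernel) (by decide +kernel)
    have r02 : oA (ev 0 - ev 2) ∈ R := sw _ (Equiv.swap 0 2 * Equiv.swap 1 3) (by decide +kernel)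
      (by decide +kernel) (by decide +kernel) (by decide +kernel)
    have rb : oA bb ∈ R := by
      show U * S.Lam (oA bb) * U⁻¹ ∈ N
      rw [S.fix_lift tB_sq (T_self _) hU (S.map_Lam _)]
      exact hLN _
    have hs : ∀ (a : K) (v : W), oA v ∈ R → oA (a • v) ∈ R := by
      intro a v hv
      rw [show a • v = a.val • v by rw [← Nat.cast_smul_eq_nsmul K, ZMod.natCast_zmod_val], ofAdd_nsmul]
      exact pow_mem hv _
    intro w
    obtain ⟨a, b, c', d, e, rfl⟩ := five_span w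
    simp only [ofAdd_add]
    exact mul_mem (mul_mem (mul_mem (mul_mem (hs _ _ r4) (hs _ _ r01)) (hs _ _ r23)) (hs _ _ r02)) (hs _ _ rb)
  have hPtop : P = ⊤ := eq_top_of_gens P hmono h0 hb
  set L := lam.range.comap σ with hL
  have hLNm : L ≤ Nm := by
    rintro x ⟨g, hg⟩
    obtain ⟨U, hU, hUN⟩ := (hP g).1 (hPtop ▸ Subgroup.mem_top g)
    have hz : U⁻¹ * x ∈ σ.ker := by rw [MonoidHom.mem_ker, map_mul, map_inv, hU, ← hg, inv_mul_cancel]
    have := mul_mem hUN (hker hz)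
    rwa [mul_inv_cancel_left] at this
  set D := ⁅L, L⁆ with hD
  have hDL : D ≤ L := Subgroup.commutator_le_self L
  have hsimple := isSimpleGroup_Om5
  have hperf : commutator Om5 = ⊤ := by
    rcases (Subgroup.Normal.eq_bot_or_eq_top (H := commutator Om5) inferInstance) with h | h
    · exfalso
      have hc : ⁅tI 0, tB⁆ ∈ commutator Om5 :=
        Subgroup.commutator_mem_commutator (Subgroup.mem_top _) (Subgroup.mem_top _)
      rw [h, Subgroup.mem_bot, commutatorElement_eq_one_iff_mul_comm] at hc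
      have := congrArg (fun g : Om5 => ((g.1 : W ≃ₗ[K] W) (ev 0))) hc
      simp only [Subgroup.coe_mul, orth_mul_apply, tI, tB, T_apply] at this
      exact absurd this (by decide +kernel)
    · exact h
  have hDmap : D.map σ = lam.range := by
    rw [hD, hL, Subgroup.map_commutator, Subgroup.map_comap_eq_self_of_surjective S.surj,
      MonoidHom.range_eq_map, ← Subgroup.map_commutator, ← commutator_def, hperf]
  have hsplit : ∀ x ∈ L, ∃ d ∈ D, ∃ z ∈ σ.ker, x = d * z := fun x hx => by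
    obtain ⟨d, hd, e⟩ : σ x ∈ D.map σ := hDmap ▸ hx
    exact ⟨d, hd, d⁻¹ * x, by rw [MonoidHom.mem_ker, map_mul, map_inv, e, inv_mul_cancel],
      (mul_inv_cancel_left _ _).symm⟩
  have habs : ∀ (d d' z z' : Γ), z ∈ σ.ker → z' ∈ σ.ker → ⁅d * z, d' * z'⁆ = ⁅d, d'⁆ := by
    intro d d' z z' hz hz'
    exact CfsgLib.SchurMult.comm_eq_of_map_eq S.central (by rw [map_mul, MonoidHom.mem_ker.1 hz, mul_one])
      (by rw [map_mul, MonoidHom.mem_ker.1 hz', mul_one])
  have hDker : ∀ z ∈ D, z ∈ σ.ker → z = 1 := by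
    intro z hzD hz
    have hinj : Function.Injective lam := (injective_iff_map_eq_one lam).2 fun g hg =>
      S.disj g 1 (by rw [hg, map_one])
    let τ : D →* lam.range := (σ.comp D.subtype).codRestrict _ fun x => by
      rw [← hDmap]; exact Subgroup.mem_map_of_mem σ x.2
    obtain ⟨e⟩ := nonempty_psp
    let θ : D →* Cfsg.PSp 2 K := ((MonoidHom.ofInjective hinj).symm.trans e.symm).toMonoidHom.comp τ
    have hθker : ∀ x : D, x ∈ θ.ker ↔ (x : Γ) ∈ σ.ker := fun x => by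
      rw [MonoidHom.mem_ker, MonoidHom.mem_ker, MonoidHom.comp_apply]
      show ((MonoidHom.ofInjective hinj).symm.trans e.symm) (τ x) = 1 ↔ _
      rw [MulEquiv.map_eq_one_iff, Subtype.ext_iff]
      rfl
    have hDD : (⁅D, D⁆ : Subgroup Γ) = D := by
      refine le_antisymm (Subgroup.commutator_le_self D) (Subgroup.commutator_le.2 fun x hx y hy => ?_)
      obtain ⟨d, hd, z₁, hz₁, rfl⟩ := hsplit x hx
      obtain ⟨d', hd', z₂, hz₂, rfl⟩ := hsplit y hy
      rw [habs _ _ _ _ hz₁ hz₂]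
      exact Subgroup.commutator_mem_commutator hd hd'
    have hθ : Cfsg.IsStemExtension θ := by
      refine ⟨fun p => ?_, fun x hx => ?_, fun x _ => ?_⟩
      · obtain ⟨d, hd, e'⟩ : lam (e p) ∈ D.map σ := hDmap ▸ ⟨e p, rfl⟩
        refine ⟨⟨d, hd⟩, ?_⟩
        show ((MonoidHom.ofInjective hinj).symm.trans e.symm) (τ ⟨d, hd⟩) = p
        rw [MulEquiv.trans_apply, MulEquiv.symm_apply_eq, MulEquiv.symm_apply_eq]
        exact Subtype.ext e'
      · exact Subgroup.mem_center_iff.2 fun y => Subtype.ext (S.kc ((hθker x).1 hx) y.1)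
      · have : (x : Γ) ∈ (commutator D).map D.subtype := by
          rw [commutator_def, Subgroup.map_commutator, ← MonoidHom.range_eq_map, Subgroup.range_subtype, hDD]
          exact x.2
        obtain ⟨y, hy, e'⟩ := this
        rwa [show y = x from Subtype.ext e'] at hy
    have h2092 := Cfsg.Agent.S2092.result (F := K) (q := 3) (by decide) 2 le_rfl (fun _ => le_rfl) (by decide)
    obtain ⟨π, hπ⟩ := h2092.2 D θ hθ
    obtain ⟨a, ha⟩ := hπ ⟨⟨z, hzD⟩, (hθker _).2 hz⟩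
    have hsq : (⟨⟨z, hzD⟩, (hθker _).2 hz⟩ : θ.ker) ^ 2 = 1 := by
      rw [← ha, ← map_pow, (by decide : ∀ b : Multiplicative (ZMod 2), b ^ 2 = 1) a, map_one]
    exact S.ker_sq hz (by
      have := congrArg (fun y : θ.ker => (y.1.1 : Γ)) hsq
      simpa [pow_two] using this)
  -- assemble
  let SS : Subgroup Γ := N ⊔ D
  have hsupset : ∀ x ∈ SS, ∃ n ∈ N, ∃ d ∈ D, x = n * d := by
    intro x hx
    have : (↑(N ⊔ D) : Set Γ) = (N : Set Γ) * (D : Set Γ) := Subgroup.coe_mul_of_right_le_normalizer_left N D (hDL.trans hLNm)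
    have hx' : x ∈ (↑(N ⊔ D) : Set Γ) := hx
    rw [this] at hx'
    obtain ⟨n, hn, d, hd, rfl⟩ := hx'
    exact ⟨n, hn, d, hd, rfl⟩
  have hH : ∀ x ∈ (E.range ⊔ lam.range).comap σ, ∃ s ∈ SS, ∃ z ∈ σ.ker, x = s * z := by
    intro x hx
    have hle : E.range ⊔ lam.range ≤ SS.map σ := sup_le
      (fun _ ⟨w, hw⟩ => ⟨S.Lam w, Subgroup.mem_sup_left (hLN w), by rw [S.map_Lam, hw]⟩)
      (hDmap ▸ Subgroup.map_mono le_sup_right)
    obtain ⟨s, hs, e⟩ := hle hx
    exact ⟨s, hs, s⁻¹ * x, by rw [MonoidHom.mem_ker, map_mul, map_inv, e, inv_mul_cancel],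
      (mul_inv_cancel_left _ _).symm⟩
  intro z hz hzk
  have hzS : z ∈ SS := by
    refine (Subgroup.commutator_le.2 fun x hx y hy => ?_) hz
    obtain ⟨s, hs, z₁, hz₁, rfl⟩ := hH x hx
    obtain ⟨s', hs', z₂, hz₂, rfl⟩ := hH y hy
    rw [habs _ _ _ _ hz₁ hz₂]
    exact Subgroup.commutator_le_self SS (Subgroup.commutator_mem_commutator hs hs')
  obtain ⟨n, hn, d, hd, rfl⟩ := hsupset z hzS
  have hnset : ∃ w : MW, ∃ m : ℤ, n = S.Lam w * c ^ m := by
    have hcc : Subgroup.zpowers c ≤ Subgroup.normalizer (S.Lam.range : Set Γ) := by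
      refine Subgroup.zpowers_le.2 (Subgroup.mem_normalizer_iff.2 fun x => ?_)
      rw [← S.kc hc x, mul_inv_cancel_right]
    have : (↑N : Set Γ) = (S.Lam.range : Set Γ) * (Subgroup.zpowers c : Set Γ) :=
      Subgroup.coe_mul_of_right_le_normalizer_left _ _ hcc
    have hn' : n ∈ (↑N : Set Γ) := hn
    rw [this] at hn'
    obtain ⟨_, ⟨w, rfl⟩, _, ⟨m, rfl⟩, rfl⟩ := hn'
    exact ⟨w, m, rfl⟩
  obtain ⟨w, m, rfl⟩ := hnset
  obtain ⟨g, hg⟩ : σ d ∈ lam.range := hDL hd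
  have hcm : σ (c ^ m) = 1 := by rw [map_zpow, MonoidHom.mem_ker.1 hc, one_zpow]
  rw [MonoidHom.mem_ker, map_mul, map_mul, hcm, mul_one, S.map_Lam, ← hg] at hzk
  have hg1 : g = 1 := S.disj g w⁻¹ (by rw [map_inv]; exact eq_inv_of_mul_eq_one_right hzk)
  rw [hg1, map_one] at hg
  have hd1 : d = 1 := hDker d hd hg.symm
  rw [hg1, map_one, mul_one, ← map_one E] at hzk
  rw [hd1, mul_one, S.inj hzk, map_one, one_mul]
  exact ⟨m, rfl⟩

end Setting

end CfsgLib.SchurMult.O73.Five
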