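import Cfsg.Agent.Lib.SchurMult.O73.Model
import Cfsg.Agent.Lib.SpSixTwo.Cover
import Cfsg.Agent.Lib.ClassicalLinear.SympPerfect
import Cfsg.Agent.Lib.ClassicalLinear.SympCard
import Cfsg.Agent.Lib.SchurMult.CentralComm

/-!
The group `Sp₆(2)` inside `Ω₇(3)`, generated by the negated reflections in the roots, and the resulting bound on
the `2`-part of the kernel of a central extension.
-/

set_option autoImplicit false
set_option linter.unusedSectionVars false

namespace CfsgLib.SchurMult.O73.Two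

set_option maxRecDepth 4000

open CfsgLib.SpSixTwo (K root dotK lab tvC omC exists_vec vec_zero T_vec)
open CfsgLib.SpAmalgam
open CfsgLib.OrthGen CfsgLib.Classes.OmegaSeven
open Matrix
open scoped commutatorElement

local notation "φ" => RingHom.id (ZMod 2)

/-- The symplectic group. -/
abbrev S6 := Sp 3 (ZMod 2)

theorem id_surj : Function.Surjective (φ) := fun x => ⟨x, rfl⟩

theorem Q_root (c : Fin 64) : Q7 (root c) ≠ 0 := by
  rw [Q_eq, SpSixTwo.root_norm]; decide

/-- The negated reflection in a root. -/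
def gr (c : Fin 64) : O7 := negOne * refl Q7 (Q_root c)

theorem act_gr (c : Fin 64) (x : V7) : act Q7 (gr c) x = -(x + dotK (root c) x • root c) := by
  rw [gr, act_mul, act_negOne, act_refl, Q_eq, SpSixTwo.root_norm, pf_eq,
    show ((-(1 : K))⁻¹ * dotK (root c) x) = -dotK (root c) x by rw [inv_neg, inv_one, neg_one_mul],
    neg_smul, sub_neg_eq_add]

theorem det_negOne : CfsgLib.Classes.detHom Q7 negOne = -1 := by
  have e : CfsgLib.Classes.detHom Q7 negOne = Matrix.det (-1 : Matrix (Fin 7) (Fin 7) K) := by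
    simp only [CfsgLib.Classes.detHom, CfsgLib.Classes.matHom, MonoidHom.comp_apply, Matrix.coe_detMonoidHom,
      Units.coeHom_apply, Subgroup.coe_subtype, negOne, coe_mkIso]
  rw [e]
  rw [Matrix.det_neg, Matrix.det_one, Fintype.card_fin]; ring

theorem det_gr (c : Fin 64) : CfsgLib.Classes.detHom Q7 (gr c) = 1 := by
  rw [gr, map_mul, det_negOne, CfsgLib.Classes.detHom_refl]; decide

/-- The invariant carried by the pairs. -/
def Good (p : S6 × O7) : Prop :=
  (∀ c : Fin 64, c ≠ 0 → ∃ d, d ≠ 0 ∧ SpSixTwo.vec φ d = ap p.1 (SpSixTwo.vec φ c) ∧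
    (act Q7 p.2 (root c) = root d ∨ act Q7 p.2 (root c) = -root d)) ∧
    CfsgLib.Classes.detHom Q7 p.2 = 1

/-- The pairs. -/
def R : Subgroup (S6 × O7) :=
  Subgroup.closure {p | ∃ c : Fin 64, c ≠ 0 ∧ p = (T (SpSixTwo.vec φ c) 1, gr c)}

theorem good_of_mem {p : S6 × O7} (hp : p ∈ R) : Good p := by
  have hp' : p ∈ Submonoid.closure {p | ∃ c : Fin 64, c ≠ 0 ∧ p = (T (SpSixTwo.vec φ c) 1, gr c)} := by
    rw [← Subgroup.closure_toSubmonoid_of_finite]
    exact hp
  clear hp
  induction hp' using Submonoid.closure_induction with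
  | mem x hx =>
    obtain ⟨c, hc, rfl⟩ := hx
    refine ⟨fun d hd => ⟨tvC c d, SpSixTwo.tvC_ne_zero c d hc hd, (T_vec φ id_surj c d).symm, ?_⟩, det_gr c⟩
    rw [act_gr]
    rcases SpSixTwo.root_refl c d hc hd with h | h
    · exact Or.inr (congrArg Neg.neg (funext h))
    · refine Or.inl ?_
      rw [show (root d + dotK (root c) (root d) • root c) = -root (tvC c d) from funext h, neg_neg]
  | one =>
    exact ⟨fun c hc => ⟨c, hc, (ap_one _).symm, Or.inl (act_one _)⟩, map_one _⟩
  | mul x y _ _ hx hy =>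
    refine ⟨fun c hc => ?_, by rw [Prod.snd_mul, map_mul, hx.2, hy.2, one_mul]⟩
    obtain ⟨d, hd, ed, hy'⟩ := hy.1 c hc
    obtain ⟨e, he, ee, hx'⟩ := hx.1 d hd
    refine ⟨e, he, by rw [ee, ed, Prod.fst_mul, ap_mul], ?_⟩
    rw [Prod.snd_mul, act_mul]
    have hn : ∀ v, act Q7 x.2 (-v) = -act Q7 x.2 v := fun v => Matrix.mulVec_neg _ _
    rcases hy' with h | h <;> rw [h] <;> rcases hx' with h' | h'
    · exact Or.inl h'
    · exact Or.inr h'
    · exact Or.inr (by rw [hn, h'])
    · exact Or.inl (by rw [hn, h', neg_neg])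

theorem lab_inj : ∀ a b : Fin 64, (∀ i : Fin 3, lab a (Sum.inl i) = lab b (Sum.inl i) ∧
    lab a (Sum.inr i) = lab b (Sum.inr i)) → a = b := by
  decide +kernel

theorem vec_inj {a b : Fin 64} (h : SpSixTwo.vec φ a = SpSixTwo.vec φ b) : a = b :=
  lab_inj a b fun i => ⟨congrFun h (Sum.inl i), congrFun h (Sum.inr i)⟩

theorem root_inj : ∀ c d : Fin 64, c ≠ 0 → d ≠ 0 →
    (∀ i, root c i = root d i) ∨ (∀ i, root c i = -root d i) → c = d := by
  decide +kernel

/-- The first projection. -/
def fstR : R →* S6 := (MonoidHom.fst _ _).comp R.subtype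

theorem fstR_injective : Function.Injective fstR := by
  refine (injective_iff_map_eq_one _).2 fun x hx => ?_
  obtain ⟨hg, hdet⟩ := good_of_mem x.2
  have hfix : ∀ c, c ≠ 0 → ∃ s : K, act Q7 x.1.2 (root c) = s • root c := fun c hc => by
    obtain ⟨d, -, ed, h⟩ := hg c hc
    rw [show x.1.1 = 1 from hx, ap_one] at ed
    rw [vec_inj ed] at h
    rcases h with h | h
    · exact ⟨1, by rw [h, one_smul]⟩
    · exact ⟨-1, by rw [h, neg_smul, one_smul]⟩
  have hu : ∀ i : Fin 7, ∃ s : K, act Q7 x.1.2 (Pi.single i 1) = Pi.single i s := fun i => by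
    obtain ⟨c, hc, hci⟩ := SpSixTwo.root_unit i
    obtain ⟨s, hs⟩ := hfix c hc
    have e : root c = Pi.single i 1 := funext fun j => by
      rw [hci, Pi.single_apply]
    refine ⟨s, ?_⟩
    rw [← e, hs, e, ← Pi.single_smul, smul_eq_mul, mul_one]
  choose s hs using hu
  have hv : ∀ v : V7, act Q7 x.1.2 v = fun i => v i * s i := fun v => by
    funext i
    conv_lhs => rw [← Finset.univ_sum_single v]
    rw [act, Matrix.mulVec_sum, Finset.sum_apply, Finset.sum_eq_single i]
    · rw [show Pi.single i (v i) = v i • (Pi.single i 1 : V7) by rw [← Pi.single_smul, smul_eq_mul, mul_one],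
        Matrix.mulVec_smul, Pi.smul_apply, smul_eq_mul]
      exact congrArg (v i * ·) ((congrFun (hs i) i).trans (Pi.single_eq_same (M := fun _ => K) i (s i)))
    · intro j _ hj
      rw [show Pi.single j (v j) = v j • (Pi.single j 1 : V7) by rw [← Pi.single_smul, smul_eq_mul, mul_one],
        Matrix.mulVec_smul, Pi.smul_apply, smul_eq_mul]
      have := (congrFun (hs j) i).trans (Pi.single_eq_of_ne (M := fun _ => K) (Ne.symm hj) (s j))
      exact mul_eq_zero_of_right _ this
    · simp
  have hall : ∀ i, s i = s 0 := fun i => by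
    obtain ⟨c, hc, hci, hc0⟩ := SpSixTwo.root_link i
    obtain ⟨t, ht⟩ := hfix c hc
    rw [hv] at ht
    have hk : ∀ j, root c j ≠ 0 → s j = t := fun j hj => by
      have := congrFun ht j
      rw [Pi.smul_apply, smul_eq_mul, mul_comm t] at this
      exact mul_left_cancel₀ hj this
    rw [hk i hci, hk 0 hc0]
  have hdet' : s 0 ^ 7 = 1 := by
    have e : ((x.1.2 : Matrix.GeneralLinearGroup (Fin 7) K) : Matrix (Fin 7) (Fin 7) K) = s 0 • 1 := by
      refine Matrix.ext_of_mulVec_single fun j => ?_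
      rw [show ((x.1.2 : Matrix.GeneralLinearGroup (Fin 7) K) : Matrix (Fin 7) (Fin 7) K) *ᵥ Pi.single j 1 =
        act Q7 x.1.2 (Pi.single j 1) from rfl, hv, Matrix.smul_mulVec, Matrix.one_mulVec]
      funext m
      rw [hall, Pi.smul_apply, smul_eq_mul, mul_comm]
    have : CfsgLib.Classes.detHom Q7 x.1.2 = Matrix.det ((s 0) • (1 : Matrix (Fin 7) (Fin 7) K)) := by
      rw [← e]
      simp only [CfsgLib.Classes.detHom, CfsgLib.Classes.matHom, MonoidHom.comp_apply, Matrix.coe_detMonoidHom,
        Units.coeHom_apply, Subgroup.coe_subtype]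
    rw [this, Matrix.det_smul, Matrix.det_one, mul_one] at hdet
    simpa using hdet
  refine Subtype.ext (Prod.ext hx (ext_act fun v => ?_))
  rw [hv]
  funext i
  rw [hall, (show ∀ a : K, a ^ 7 = 1 → a = 1 by decide) _ hdet', mul_one]
  exact (congrFun (act_one v) i).symm

theorem fstR_surjective : Function.Surjective fstR := by
  rw [← MonoidHom.range_eq_top, eq_top_iff]
  intro g _
  have h : g ∈ SpMult.TV 3 (ZMod 2) 0 := SpMult.Rsub_le_TV 0 (fun i hi => absurd hi (Nat.not_lt_zero _))
  refine (Subgroup.closure_le _).2 ?_ h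
  rintro _ ⟨v, s, -, rfl⟩
  obtain ⟨c, rfl⟩ := exists_vec φ id_surj v
  rcases (show ∀ z : ZMod 2, z = 0 ∨ z = 1 by decide) s with rfl | rfl
  · rw [T_zero]; exact one_mem _
  by_cases hc : c = 0
  · rw [hc, SpSixTwo.vec_zero, SpMult.T_zero_vec]; exact one_mem _
  exact ⟨⟨_, Subgroup.subset_closure ⟨c, hc, rfl⟩⟩, rfl⟩

/-- The embedding. -/
noncomputable def emb : S6 →* O7 :=
  ((MonoidHom.snd _ _).comp R.subtype).comp
    (MulEquiv.ofBijective fstR ⟨fstR_injective, fstR_surjective⟩).symm.toMonoidHom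

theorem emb_injective : Function.Injective emb := by
  refine (injective_iff_map_eq_one _).2 fun g hg => ?_
  set e := MulEquiv.ofBijective fstR ⟨fstR_injective, fstR_surjective⟩
  have h2 : (e.symm g).1.2 = 1 := hg
  have h1 : (e.symm g).1.1 = g := e.apply_symm_apply g
  refine ext_ap fun v => ?_
  rw [ap_one]
  obtain ⟨c, rfl⟩ := exists_vec φ id_surj v
  by_cases hc : c = 0
  · rw [hc, SpSixTwo.vec_zero, ap, Matrix.mulVec_zero]
  obtain ⟨d, hd, ed, h⟩ := (good_of_mem (e.symm g).2).1 c hc
  rw [h2, act_one] at h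
  rw [h1] at ed
  rw [← ed, ← root_inj c d hc hd (h.imp congrFun congrFun)]

theorem perfect : commutator S6 = ⊤ :=
  ClassicalLinear.commutator_sp_eq_top (Or.inl le_rfl)

theorem range_emb_le : emb.range ≤ Om := by
  rw [MonoidHom.range_eq_map, ← perfect, commutator_def, Subgroup.map_commutator]
  exact Subgroup.commutator_mono le_top le_top

/-- The embedding into the simple group. -/
noncomputable def embOm : S6 →* Om := emb.codRestrict Om fun g => range_emb_le ⟨g, rfl⟩

theorem embOm_injective : Function.Injective embOm := fun _ _ h =>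
  emb_injective (congrArg Subtype.val h)

theorem card_range : Nat.card embOm.range = 1451520 := by
  rw [← Nat.card_congr (MonoidHom.ofInjective embOm_injective).toEquiv, ClassicalLinear.card_sp,
    ZMod.card, Finset.prod_range_succ, Finset.prod_range_succ, Finset.prod_range_succ, Finset.prod_range_zero]
  norm_num

/-- The `2`-part of the bound. -/
theorem exists_bound {Γ : Type} [Group Γ] [Finite Γ] {σ : Γ →* Om} (hs : Function.Surjective σ)
    (hc : σ.ker ≤ Subgroup.center Γ) : ∃ c : Γ, c ^ 2 = 1 ∧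
      ∀ z ∈ ⁅embOm.range.comap σ, embOm.range.comap σ⁆, z ∈ σ.ker → z ∈ Subgroup.zpowers c := by
  set H := embOm.range.comap σ with hH
  set D : Subgroup Γ := ⁅H, H⁆ with hD
  have hDH : D ≤ H := Subgroup.commutator_le_self H
  have hperf : ⁅embOm.range, embOm.range⁆ = embOm.range := by
    rw [MonoidHom.range_eq_map, ← Subgroup.map_commutator, ← commutator_def, perfect]
  have hmap : D.map σ = embOm.range := by
    rw [hD, Subgroup.map_commutator, hH, Subgroup.map_comap_eq_self_of_surjective hs, hperf]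
  let r : D →* embOm.range := (σ.comp D.subtype).codRestrict _ fun d => hDH d.2
  let e : embOm.range ≃* S6 := (MonoidHom.ofInjective embOm_injective).symm
  let σ' : D →* S6 := e.toMonoidHom.comp r
  have hr : ∀ d : D, (r d : Om) = σ d.1 := fun _ => rfl
  have hker : ∀ d : D, σ' d = 1 ↔ σ d.1 = 1 := fun d => by
    show e (r d) = 1 ↔ _
    rw [map_eq_one_iff e e.injective, ← hr d]
    exact Subtype.ext_iff
  have hσ' : Cfsg.IsStemExtension σ' := by
    refine ⟨fun g => ?_, fun d hd => ?_, ?_⟩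
    · obtain ⟨d, hd, hd'⟩ : ((e.symm g : embOm.range) : Om) ∈ D.map σ := by rw [hmap]; exact (e.symm g).2
      refine ⟨⟨d, hd⟩, ?_⟩
      show e (r ⟨d, hd⟩) = g
      rw [show r ⟨d, hd⟩ = e.symm g from Subtype.ext hd', e.apply_symm_apply]
    · exact Subgroup.mem_center_iff.2 fun y => Subtype.ext
        (Subgroup.mem_center_iff.1 (hc ((hker d).1 hd)) y.1)
    · have hHD : ∀ h ∈ H, ∃ d ∈ D, ∃ k ∈ σ.ker, h = d * k := fun h hh => by
        obtain ⟨d, hd, hd'⟩ : σ h ∈ D.map σ := by rw [hmap]; exact hh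
        exact ⟨d, hd, d⁻¹ * h, by rw [MonoidHom.mem_ker, map_mul, map_inv, hd', inv_mul_cancel], by group⟩
      have hDD : D ≤ ⁅D, D⁆ := by
        conv_lhs => rw [hD]
        refine Subgroup.commutator_le.2 fun a ha b hb => ?_
        obtain ⟨d, hd, k, hk, rfl⟩ := hHD a ha
        obtain ⟨d', hd', k', hk', rfl⟩ := hHD b hb
        rw [SchurMult.comm_eq_of_map_eq hc (a' := d) (b' := d')
          (by rw [map_mul, MonoidHom.mem_ker.1 hk, mul_one])
          (by rw [map_mul, MonoidHom.mem_ker.1 hk', mul_one])]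
        exact Subgroup.commutator_mem_commutator hd hd'
      rw [show commutator D = ⊤ by
        rw [eq_top_iff]
        refine (Subgroup.map_le_map_iff_of_injective (f := D.subtype) (Subgroup.subtype_injective _)).1 ?_
        rw [← MonoidHom.range_eq_map, Subgroup.range_subtype, commutator_def D, Subgroup.map_commutator,
          ← MonoidHom.range_eq_map, Subgroup.range_subtype]
        exact hDD]
      exact le_top
  obtain ⟨k, hk2, hk, hle⟩ := SpSixTwo.exists_kerGen φ id_surj hσ'
  refine ⟨k.1, by rw [← Subgroup.coe_pow, hk2, Subgroup.coe_one], fun z hz hzk => ?_⟩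
  obtain ⟨n, hn⟩ := hle (show (⟨z, hz⟩ : D) ∈ σ'.ker from (hker _).2 hzk)
  exact ⟨n, (Subgroup.coe_zpow D k n).symm.trans (congrArg Subtype.val hn)⟩

end CfsgLib.SchurMult.O73.Two
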