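import Cfsg.Agent.Lib.SchurMult.O73.Basic

/-!
The labelled orthogonality graph is invariant under the two generators and connected.
-/

set_option autoImplicit false

namespace CfsgLib.SchurMult.O73

/-- The invariance test at an ordered pair. -/
def pairOK (j : Fin 3) (M M' u : ℕ) (e : ℕ) : Bool :=
  Nat.beq (nbN M e) 0 ||
    Nat.beq (nbN M' (permN j e)) ((2 * (nbN M e - 1) + shiftN j e + 2 * u) % 3 + 1)

/-- The invariance test at a line. -/
def rowOK (j : Fin 3) (d : ℕ) : Bool :=
  (List.range 378).all (pairOK j (nbRow d) (nbRow (permN j d)) (shiftN j d))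

theorem rowOK0 : ∀ d < 378, rowOK 0 d = true := by decide +kernel

theorem rowOK1 : ∀ d < 378, rowOK 1 d = true := by decide +kernel

theorem nb_range : ∀ d < 378, (treePack >>> (9 * d) &&& 511) < 378 ∧
    (d = 0 ∨ ((treePack >>> (9 * d) &&& 511) < d ∧ nbN (nbRow d) (treePack >>> (9 * d) &&& 511) ≠ 0)) := by
  decide +kernel

theorem perm_range : ∀ (j : Fin 3) (d : Fin 378), permN j d.val < 378 := by decide +kernel

theorem orbit_range : ∀ d : Fin 378, d = 0 ∨
    ((orbRankPack >>> (9 * (orbPack >>> (9 * d.val) &&& 511)) &&& 511) < (orbRankPack >>> (9 * d.val) &&& 511) ∧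
      permF (Fin.ofNat 3 (orbGenPack >>> d.val &&& 1)) (Fin.ofNat 378 (orbPack >>> (9 * d.val) &&& 511)) = d ∧
      (orbPack >>> (9 * d.val) &&& 511) < 378) := by
  decide +kernel

end CfsgLib.SchurMult.O73
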