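import Cfsg.Agent.Lib.SchurMult.O73.Model

/-!
A perfect central extension of `Ω₇(3)` with cyclic kernel of order six: the group generated by two elements
acting on the three lifts of each line and on spinors.
-/

set_option autoImplicit false
set_option linter.unusedSectionVars false

namespace CfsgLib.SchurMult.O73

open CfsgLib.SpSixTwo (K M8 G gam scalar_of_comm G_single)
open CfsgLib.OrthGen CfsgLib.Classes.OmegaSeven
open Matrix
open scoped commutatorElement

/-- The lifts of the lines. -/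
abbrev Pt := Fin 378 × K

/-- A generator on the lifts. -/
def permP (j : Fin 3) : Equiv.Perm Pt where
  toFun p := (permF j p.1, -p.2 + shiftF j p.1)
  invFun p := (permF (invJ j) p.1, -p.2 + shiftF (invJ j) p.1)
  left_inv p := by
    refine Prod.ext (permF_inv j p.1) ?_
    show -(-p.2 + shiftF j p.1) + shiftF (invJ j) (permF j p.1) = p.2
    rw [shiftF_inv]; ring
  right_inv p := by
    have hj : ∀ j, invJ (invJ j) = j := by decide
    refine Prod.ext (by simpa [hj] using permF_inv (invJ j) p.1) ?_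
    show -(-p.2 + shiftF (invJ j) p.1) + shiftF j (permF (invJ j) p.1) = p.2
    have := shiftF_inv (invJ j) p.1
    rw [hj] at this
    rw [this]; ring

theorem spinF_mul : ∀ j : Fin 3, spinF j * spinF (invJ j) = 1 ∧ spinF (invJ j) * spinF j = 1 := by
  decide +kernel

theorem spinF_gam : ∀ (j : Fin 3) (i : Fin 7),
    spinF j * gam i = G (fun k => matF j k i) * spinF j := by
  decide +kernel

/-- A generator on spinors. -/
def spinU (j : Fin 3) : M8ˣ := ⟨spinF j, spinF (invJ j), (spinF_mul j).1, (spinF_mul j).2⟩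

/-- The ambient group. -/
abbrev Amb := O7 × (Equiv.Perm Pt × M8ˣ)

/-- A generator of the cover. -/
def gen (j : Fin 3) : Amb := (isoG j, permP j, spinU j)

theorem G_mulVec (M : Matrix (Fin 7) (Fin 7) K) (x : V7) :
    G (M *ᵥ x) = ∑ i, x i • G (fun k => M k i) := by
  simp only [G, Matrix.mulVec, dotProduct, Finset.smul_sum, Finset.sum_smul, smul_smul]
  rw [Finset.sum_comm]
  exact Finset.sum_congr rfl fun i _ => Finset.sum_congr rfl fun k _ => by rw [mul_comm]

/-- The invariant carried by the elements of the cover. -/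
def Good (p : Amb) : Prop :=
  ∃ (t : K) (P : Fin 378 → Fin 378) (u : Fin 378 → K), (t = 1 ∨ t = -1) ∧
    (∀ d k, p.2.1 (d, k) = (P d, t * k + u d)) ∧
    (∀ d, act Q7 p.1 (vec d) = vec (P d) ∨ act Q7 p.1 (vec d) = -vec (P d)) ∧
    (∀ d e c, Adj d e c → Adj (P d) (P e) (t * c + u e - u d)) ∧
    ∀ x : V7, (p.2.2 : M8) * G x = G (act Q7 p.1 x) * p.2.2

theorem good_one : Good 1 :=
  ⟨1, id, 0, Or.inl rfl, fun d k => by simp, fun d => Or.inl (act_one _),
    fun d e c h => by simpa using h, fun x => by simp [act_one]⟩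

theorem good_mul {p q : Amb} (hp : Good p) (hq : Good q) : Good (p * q) := by
  obtain ⟨t, P, u, ht, hperm, hvec, hadj, hspin⟩ := hp
  obtain ⟨t', P', u', ht', hperm', hvec', hadj', hspin'⟩ := hq
  refine ⟨t * t', P ∘ P', fun d => t * u' d + u (P' d), ?_, fun d k => ?_, fun d => ?_, fun d e c h => ?_,
    fun x => ?_⟩
  · rcases ht with rfl | rfl <;> rcases ht' with rfl | rfl <;> simp
  · show p.2.1 (q.2.1 (d, k)) = _
    rw [hperm', hperm]
    exact Prod.ext rfl (by ring)
  · show act Q7 (p.1 * q.1) (vec d) = vec (P (P' d)) ∨ act Q7 (p.1 * q.1) (vec d) = -vec (P (P' d))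
    rw [act_mul]
    have hn : ∀ v, act Q7 p.1 (-v) = -act Q7 p.1 v := fun v => Matrix.mulVec_neg _ _
    rcases hvec' d with h | h <;> rw [h] <;> rcases hvec (P' d) with h' | h'
    · exact Or.inl h'
    · exact Or.inr h'
    · exact Or.inr (by rw [hn, h'])
    · exact Or.inl (by rw [hn, h', neg_neg])
  · have := hadj _ _ _ (hadj' d e c h)
    show Adj (P (P' d)) (P (P' e)) _
    convert this using 1
    ring
  · show (p.2.2 : M8) * q.2.2 * G x = G (act Q7 (p.1 * q.1) x) * ((p.2.2 : M8) * q.2.2)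
    rw [act_mul, mul_assoc, hspin', ← mul_assoc, hspin, mul_assoc]

theorem nbN_cases (M e : ℕ) : nbN M e = 0 ∨ nbN M e = 1 ∨ nbN M e = 2 ∨ nbN M e = 3 := by
  have : nbN M e ≤ 3 := Nat.and_le_right
  omega

theorem adj_gen (j : Fin 3) (hj : ∀ d < 378, rowOK j d = true) {d e : Fin 378} {c : K} (h : Adj d e c) :
    Adj (permF j d) (permF j e) (-1 * c + shiftF j e - shiftF j d) := by
  have hr := hj d.val d.isLt
  simp only [rowOK, List.all_eq_true, List.mem_range] at hr
  have := hr e.val e.isLt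
  have hc : c.val < 3 := ZMod.val_lt _
  rw [Adj] at h
  rw [pairOK, h, Bool.or_eq_true] at this
  rcases this with h0 | h1
  · simp [Nat.beq_eq] at h0
  have e1 := Nat.eq_of_beq_eq_true h1
  have hP : ∀ f : Fin 378, (permF j f).val = permN j f.val := fun f => by
    show permN j f.val % 378 = _
    exact Nat.mod_eq_of_lt (perm_range j f)
  show nbN (nbRow (permF j d).val) (permF j e).val = _
  rw [hP, hP, e1]
  have hk : ∀ (a b : ℕ), ((2 * (c.val + 1 - 1) + a + 2 * b) % 3) = (-1 * c + (a : K) - (b : K)).val := by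
    intro a b
    have : (-1 * c + (a : K) - (b : K)) = ((2 * (c.val + 1 - 1) + a + 2 * b : ℕ) : K) := by
      rw [Nat.add_sub_cancel]
      push_cast
      rw [ZMod.natCast_zmod_val, (show (2 : K) = -1 by decide)]
      ring
    rw [this, ZMod.val_natCast]
  rw [hk]
  rfl

theorem good_gen : ∀ j : Fin 3, j ≠ 2 → Good (gen j) := by
  intro j hj
  have hadj : ∀ d < 378, rowOK j d = true := by
    fin_cases j
    · exact rowOK0
    · exact rowOK1
    · exact absurd rfl hj
  refine ⟨-1, permF j, shiftF j, Or.inr rfl, fun d k => ?_, fun d => mat_vec j d,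
    fun d e c h => adj_gen j hadj h, fun x => ?_⟩
  · show (permF j d, -k + shiftF j d) = _
    rw [neg_one_mul]
  · show spinF j * G x = G (matF j *ᵥ x) * spinF j
    rw [G_mulVec, Finset.sum_mul, G, Finset.mul_sum]
    exact Finset.sum_congr rfl fun i _ => by rw [mul_smul_comm, smul_mul_assoc, spinF_gam]

/-- The group generated by the two elements. -/
def X : Subgroup Amb := Subgroup.closure {gen 0, gen 1}

theorem gen_mem (j : Fin 3) : gen j ∈ X := by
  have h0 : gen 0 ∈ X := Subgroup.subset_closure (by simp)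
  have h1 : gen 1 ∈ X := Subgroup.subset_closure (by simp)
  fin_cases j
  · exact h0
  · exact h1
  · have e : gen 2 = (gen 1)⁻¹ := Prod.ext (Subtype.ext (Units.ext rfl))
      (Prod.ext (Equiv.ext fun p => rfl) (Units.ext rfl))
    show gen 2 ∈ X
    rw [e]; exact inv_mem h1

theorem finite_amb : Finite Amb := inferInstance

theorem good_of_mem {p : Amb} (hp : p ∈ X) : Good p := by
  have := finite_amb
  have h : p ∈ Submonoid.closure ({gen 0, gen 1} : Set Amb) := by
    rw [← Subgroup.closure_toSubmonoid_of_finite]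
    exact hp
  clear hp
  induction h using Submonoid.closure_induction with
  | mem x hx =>
    rcases hx with rfl | rfl
    · exact good_gen 0 (by decide)
    · exact good_gen 1 (by decide)
  | one => exact good_one
  | mul x y _ _ hx hy => exact good_mul hx hy

/-- Translation of the three lifts. -/
def sh (a : K) : Equiv.Perm Pt where
  toFun p := (p.1, p.2 + a)
  invFun p := (p.1, p.2 - a)
  left_inv p := by simp
  right_inv p := by simp

theorem conj_sh {p : Amb} (hp : Good p) : ∃ t : K, (t = 1 ∨ t = -1) ∧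
    ∀ a, p.2.1 * sh a = sh (t * a) * p.2.1 := by
  obtain ⟨t, P, u, ht, hperm, -⟩ := hp
  refine ⟨t, ht, fun a => Equiv.ext fun q => ?_⟩
  obtain ⟨d, k⟩ := q
  show p.2.1 (d, k + a) = ((p.2.1 (d, k)).1, (p.2.1 (d, k)).2 + t * a)
  rw [hperm, hperm]
  exact Prod.ext rfl (by ring)

/-- The elements centralizing the translations. -/
def Plus : Subgroup Amb where
  carrier := {p | ∀ a, p.2.1 * sh a = sh a * p.2.1}
  one_mem' := fun a => by simp
  mul_mem' := fun {p q} hp hq a => by
    show p.2.1 * q.2.1 * sh a = sh a * (p.2.1 * q.2.1)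
    rw [mul_assoc, hq, ← mul_assoc, hp, mul_assoc]
  inv_mem' := fun {p} hp a => by
    show p.2.1⁻¹ * sh a = sh a * p.2.1⁻¹
    rw [inv_mul_eq_iff_eq_mul, ← mul_assoc, hp, mul_inv_cancel_right]

/-- The cover. -/
def Cov : Subgroup Amb := ⁅X, X⁆

theorem cov_le : Cov ≤ X := Subgroup.commutator_le_self X

theorem cov_plus : Cov ≤ Plus := by
  refine Subgroup.commutator_le.2 fun p hp q hq a => ?_
  obtain ⟨t, ht, e⟩ := conj_sh (good_of_mem hp)
  obtain ⟨s, hs, f⟩ := conj_sh (good_of_mem hq)
  have tt : t * t = 1 := by rcases ht with rfl | rfl <;> decide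
  have ss : s * s = 1 := by rcases hs with rfl | rfl <;> decide
  have ei : ∀ b, p.2.1⁻¹ * sh b = sh (t * b) * p.2.1⁻¹ := fun b => by
    rw [inv_mul_eq_iff_eq_mul, ← mul_assoc, e, ← mul_assoc t t, tt, one_mul, mul_inv_cancel_right]
  have fi : ∀ b, q.2.1⁻¹ * sh b = sh (s * b) * q.2.1⁻¹ := fun b => by
    rw [inv_mul_eq_iff_eq_mul, ← mul_assoc, f, ← mul_assoc s s, ss, one_mul, mul_inv_cancel_right]
  show p.2.1 * q.2.1 * p.2.1⁻¹ * q.2.1⁻¹ * sh a = sh a * (p.2.1 * q.2.1 * p.2.1⁻¹ * q.2.1⁻¹)
  rw [mul_assoc _ q.2.1⁻¹, fi, ← mul_assoc, mul_assoc _ p.2.1⁻¹, ei, ← mul_assoc, mul_assoc _ q.2.1,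
    f, ← mul_assoc, e]
  have : t * (s * (t * (s * a))) = a := by
    linear_combination (s * s * a) * tt + a * ss
  rw [this]
  simp only [mul_assoc]

theorem tree_connected {u : Fin 378 → K} (h : ∀ d e c, Adj d e c → c + u e - u d = c) :
    ∀ (n : ℕ) (d : Fin 378), d.val = n → u d = u 0 := by
  intro n
  induction n using Nat.strong_induction_on with
  | _ n ih =>
    intro d hd
    obtain ⟨hlt, h0 | ⟨hpar, hnb⟩⟩ := nb_range d.val d.isLt
    · rw [show d = 0 from Fin.ext h0]
    · set m := treePack >>> (9 * d.val) &&& 511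
      have hadj : Adj d ⟨m, hlt⟩ ((nbN (nbRow d.val) m - 1 : ℕ) : K) := by
        show nbN (nbRow d.val) m = _
        rw [ZMod.val_natCast]
        rcases nbN_cases (nbRow d.val) m with e | e | e | e <;> simp [e] at hnb ⊢
      have := h _ _ _ hadj
      rw [← ih m (by omega) ⟨m, hlt⟩ rfl]
      linear_combination -this

/-- The projection of the cover. -/
def prX : Cov →* O7 := (MonoidHom.fst _ _).comp Cov.subtype

theorem ker_form {p : Amb} (hp : p ∈ Cov) (h : p.1 = 1) :
    ∃ (a : K) (s : K), p.2.1 = sh a ∧ (p.2.2 : M8) = s • 1 ∧ (s = 1 ∨ s = -1) := by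
  obtain ⟨t, P, u, ht, hperm, hvec, hadj, hspin⟩ := good_of_mem (cov_le hp)
  have hP : ∀ d, P d = d := fun d => by
    have := hvec d
    rw [h, act_one] at this
    exact (vec_inj this).symm
  have ht1 : t = 1 := by
    have := congrArg Prod.snd (Equiv.ext_iff.1 (cov_plus hp 1) (0, 0))
    simp only [Equiv.Perm.mul_apply, sh, Equiv.coe_fn_mk, hperm] at this
    linear_combination this
  subst ht1
  have hu : ∀ d, u d = u 0 := fun d => by
    refine tree_connected (fun e f c hc => ?_) d.val d rfl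
    have h1 := hadj e f c hc
    rw [hP, hP, one_mul, Adj, show nbN (nbRow e.val) f.val = c.val + 1 from hc] at h1
    exact (ZMod.val_injective 3 (Nat.succ_injective h1)).symm
  have hs : (p.2.2 : M8) = (p.2.2 : M8) 0 0 • 1 := scalar_of_comm fun k => by
    have := hspin (fun j => if j = k then 1 else 0)
    rwa [h, act_one, G_single] at this
  refine ⟨u 0, _, Equiv.ext fun q => ?_, hs, ?_⟩
  · obtain ⟨d, k⟩ := q
    rw [hperm, hP, hu, one_mul]; rfl
  · rcases (show ∀ x : K, x = 0 ∨ x = 1 ∨ x = -1 by decide) ((p.2.2 : M8) 0 0) with h0 | h0 | h0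
    · rw [h0, zero_smul] at hs
      exact absurd hs p.2.2.ne_zero
    · exact Or.inl h0
    · exact Or.inr h0

theorem ker_le_center : prX.ker ≤ Subgroup.center Cov := by
  intro x hx
  obtain ⟨a, s, ha, hs, -⟩ := ker_form x.2 (MonoidHom.mem_ker.1 hx)
  refine Subgroup.mem_center_iff.2 fun y => Subtype.ext (Prod.ext ?_ (Prod.ext ?_ (Units.ext ?_)))
  · show y.1.1 * x.1.1 = x.1.1 * y.1.1
    rw [show x.1.1 = 1 from hx, mul_one, one_mul]
  · show y.1.2.1 * x.1.2.1 = x.1.2.1 * y.1.2.1
    rw [ha]; exact cov_plus y.2 a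
  · show (y.1.2.2 : M8) * x.1.2.2 = (x.1.2.2 : M8) * y.1.2.2
    rw [hs, mul_smul_comm, mul_one, smul_mul_assoc, one_mul]

theorem nr_mem_map : ∀ d, nr d ∈ X.map (MonoidHom.fst _ _) := by
  have key : ∀ (n : ℕ) (d : Fin 378), orbRankPack >>> (9 * d.val) &&& 511 = n →
      nr d ∈ X.map (MonoidHom.fst _ _) := by
    intro n
    induction n using Nat.strong_induction_on with
    | _ n ih =>
      intro d hd
      rcases orbit_range d with rfl | ⟨hlt, hP, hm⟩
      · exact ⟨gen 0, gen_mem 0, isoG_zero⟩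
      set m : Fin 378 := Fin.ofNat 378 (orbPack >>> (9 * d.val) &&& 511) with hm'
      have hmv : m.val = orbPack >>> (9 * d.val) &&& 511 := by
        show (orbPack >>> (9 * d.val) &&& 511) % 378 = _
        exact Nat.mod_eq_of_lt hm
      set j : Fin 3 := Fin.ofNat 3 (orbGenPack >>> d.val &&& 1)
      have hg : isoG j ∈ X.map (MonoidHom.fst _ _) := ⟨gen j, gen_mem j, rfl⟩
      have := mat_vec j m
      rw [hP] at this
      rw [← conj_nr (isoG j) (d := m) this]
      exact mul_mem (mul_mem hg (ih _ (by rw [← hd, hmv]; exact hlt) m rfl)) (inv_mem hg)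
  exact fun d => key _ d rfl

theorem range_prX : prX.range = Om := by
  have e : prX.range = ⁅X, X⁆.map (MonoidHom.fst _ _) := by
    rw [prX, MonoidHom.range_comp, Subgroup.range_subtype]; rfl
  rw [e, Subgroup.map_commutator]
  refine le_antisymm (Subgroup.commutator_mono le_top le_top) (Om_le_commutator.trans ?_)
  have : NR ≤ X.map (MonoidHom.fst _ _) :=
    (Subgroup.closure_le _).2 fun x ⟨d, hd⟩ => hd ▸ nr_mem_map d
  exact Subgroup.commutator_mono this this

/-- The value of a word in the generators. -/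
def wordVal : List (Fin 3) → Amb
  | [] => 1
  | j :: l => gen j * wordVal l

theorem wordVal_mem : ∀ l, wordVal l ∈ X
  | [] => one_mem _
  | j :: l => mul_mem (gen_mem j) (wordVal_mem l)

/-- The code of the image of a vector under a word. -/
def wordC : List (Fin 3) → ℕ → ℕ
  | [], v => v
  | j :: l, v => mvC j (wordC l v)

theorem act_wordVal : ∀ (l : List (Fin 3)) (n : ℕ), act Q7 (wordVal l).1 (decV n) = decV (wordC l n)
  | [], n => act_one _
  | j :: l, n => by
    show act Q7 (isoG j * (wordVal l).1) _ = _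
    rw [act_mul, act_wordVal l n, act_isoG, ← decV_mvC]
    rfl

/-- The inverse of a word. -/
def wordInv (l : List (Fin 3)) : List (Fin 3) := (l.reverse).map invJ

theorem wordVal_append : ∀ l l', wordVal (l ++ l') = wordVal l * wordVal l'
  | [], l' => (one_mul _).symm
  | j :: l, l' => by
    show gen j * wordVal (l ++ l') = gen j * wordVal l * wordVal l'
    rw [wordVal_append l l', mul_assoc]

theorem gen_invJ (j : Fin 3) : gen (invJ j) = (gen j)⁻¹ := by
  have hj : ∀ j, invJ (invJ j) = j := by decide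
  refine Prod.ext (Subtype.ext (Units.ext rfl)) (Prod.ext (Equiv.ext fun p => ?_) (Units.ext rfl))
  show (permF (invJ j) p.1, -p.2 + shiftF (invJ j) p.1) = _
  rfl

theorem wordVal_inv : ∀ l, wordVal (wordInv l) = (wordVal l)⁻¹
  | [] => inv_one.symm
  | j :: l => by
    show wordVal (((j :: l).reverse).map invJ) = (gen j * wordVal l)⁻¹
    rw [List.reverse_cons, List.map_append, wordVal_append]
    show wordVal (wordInv l) * (gen (invJ j) * 1) = _
    rw [wordVal_inv l, mul_one, gen_invJ, _root_.mul_inv_rev]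

/-- The word of a commutator. -/
def wordComm (a b : List (Fin 3)) : List (Fin 3) := a ++ b ++ wordInv a ++ wordInv b

theorem wordVal_comm (a b : List (Fin 3)) : wordVal (wordComm a b) = ⁅wordVal a, wordVal b⁆ := by
  rw [wordComm, wordVal_append, wordVal_append, wordVal_append, wordVal_inv, wordVal_inv, commutatorElement_def]

/-- The lift of a point under a word. -/
def wordPt : List (Fin 3) → Pt → Pt
  | [], p => p
  | j :: l, p => permP j (wordPt l p)

theorem wordPt_eq : ∀ (l : List (Fin 3)) (p : Pt), (wordVal l).2.1 p = wordPt l p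
  | [], p => rfl
  | j :: l, p => by
    show permP j ((wordVal l).2.1 p) = _
    rw [wordPt_eq l p]; rfl

/-- The spinor image of a vector under a word. -/
def wordSpin : List (Fin 3) → List ℕ → List ℕ
  | [], v => v
  | j :: l, v =>
    let w := wordSpin l v
    (List.range 8).map fun a =>
      ((List.range 8).map fun b => ((spinTab.getD j.val []).getD a 0 / 3 ^ b % 3) * w.getD b 0).sum % 3

theorem wordSpin_eq : ∀ (l : List (Fin 3)) (v : List ℕ),
    ((wordVal l).2.2 : M8) *ᵥ (fun b => ((v.getD b.val 0 : ℕ) : K)) = fun a => (((wordSpin l v).getD a.val 0 : ℕ) : K)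
  | [], v => Matrix.one_mulVec _
  | j :: l, v => by
    show (spinF j * (wordVal l).2.2.val) *ᵥ _ = _
    rw [← Matrix.mulVec_mulVec, wordSpin_eq l v]
    funext a
    simp only [wordSpin, Matrix.mulVec, dotProduct, spinF, Matrix.of_apply]
    rw [show ∀ f : ℕ → ℕ, ((List.range 8).map f).getD a.val 0 = f a.val from fun f => by
      simp [List.getD_eq_getElem?_getD, a.isLt], ZMod.natCast_mod]
    simp [List.range_succ, Fin.sum_univ_eight, add_assoc]

/-- The generator of the kernel. -/
def kWord : List (Fin 3) :=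
  wordComm (wordComm wordT0 wordT1) (wordComm wordT2 wordT3) ++
    wordComm (wordComm wordS0 wordS1) (wordComm wordS2 wordS3)

theorem kWord_base : ∀ i : Fin 7, wordC kWord (3 ^ i.val) = 3 ^ i.val := by decide +kernel

theorem kWord_pt : wordPt kWord (0, 0) = (0, 2) := by decide +kernel

theorem kWord_spin : (wordSpin kWord [1, 0, 0, 0, 0, 0, 0, 0]).getD 0 0 = 2 := by decide +kernel

theorem decV_pow : ∀ i : Fin 7, decV (3 ^ i.val) = Pi.single i 1 := by decide +kernel

theorem eq_one_of_fix {g : O7} (h : ∀ i : Fin 7, act Q7 g (Pi.single i 1) = Pi.single i 1) : g = 1 := by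
  refine Subtype.ext (Units.ext (Matrix.ext_of_mulVec_single fun i => ?_))
  show act Q7 g _ = (1 : Matrix (Fin 7) (Fin 7) K) *ᵥ _
  rw [Matrix.one_mulVec]
  exact h i

theorem exists_gen : ∃ k : Cov, k ∈ prX.ker ∧ k ∈ commutator Cov ∧
    (∀ x ∈ prX.ker, x ∈ Subgroup.zpowers k) ∧ orderOf k = 6 := by
  have hc : ∀ a b, wordVal (wordComm a b) ∈ Cov := fun a b => by
    rw [wordVal_comm]; exact Subgroup.commutator_mem_commutator (wordVal_mem a) (wordVal_mem b)
  let T0 : Cov := ⟨_, hc wordT0 wordT1⟩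
  let T1 : Cov := ⟨_, hc wordT2 wordT3⟩
  let S0 : Cov := ⟨_, hc wordS0 wordS1⟩
  let S1 : Cov := ⟨_, hc wordS2 wordS3⟩
  obtain ⟨k, hkc, hk⟩ : ∃ k : Cov, k ∈ commutator Cov ∧ k.1 = wordVal kWord := by
    refine ⟨⁅T0, T1⁆ * ⁅S0, S1⁆, mul_mem
      (Subgroup.commutator_mem_commutator (Subgroup.mem_top _) (Subgroup.mem_top _))
      (Subgroup.commutator_mem_commutator (Subgroup.mem_top _) (Subgroup.mem_top _)), ?_⟩
    rw [kWord, wordVal_append, wordVal_comm, wordVal_comm (wordComm wordS0 wordS1)]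
    rfl
  have hker : k ∈ prX.ker := by
    rw [MonoidHom.mem_ker]
    show k.1.1 = 1
    refine eq_one_of_fix fun i => ?_
    rw [hk, ← decV_pow, act_wordVal, kWord_base]
  obtain ⟨a, s, ha, hs, -⟩ := ker_form k.2 (MonoidHom.mem_ker.1 hker)
  have ha2 : a = 2 := by
    have := kWord_pt
    rw [← wordPt_eq, ← hk, ha] at this
    simpa [sh] using this
  have hs2 : s = -1 := by
    have := congrFun (wordSpin_eq kWord [1, 0, 0, 0, 0, 0, 0, 0]) 0
    rw [← hk, hs, Matrix.smul_mulVec, Matrix.one_mulVec] at this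
    simp only [Fin.val_zero, kWord_spin, Pi.smul_apply, smul_eq_mul] at this
    rw [show ([1, 0, 0, 0, 0, 0, 0, 0] : List ℕ).getD 0 0 = 1 from rfl, Nat.cast_one, mul_one] at this
    rw [this]; decide
  refine ⟨k, hker, hkc, ?_⟩
  have hpow : ∀ n : ℕ, (k ^ n).1.1 = 1 ∧ (k ^ n).1.2.1 = sh (n * a) ∧ ((k ^ n).1.2.2 : M8) = s ^ n • 1 := by
    intro n
    induction n with
    | zero =>
      refine ⟨rfl, Equiv.ext fun p => ?_, by simp⟩
      simp [sh]
    | succ n ih =>
      rw [pow_succ]
      refine ⟨by show (k ^ n).1.1 * k.1.1 = 1; rw [ih.1, show k.1.1 = 1 from hker, one_mul], ?_, ?_⟩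
      · show (k ^ n).1.2.1 * k.1.2.1 = _
        rw [ih.2.1, ha]
        refine Equiv.ext fun p => ?_
        simp only [Equiv.Perm.mul_apply, sh, Equiv.coe_fn_mk, Nat.cast_succ]
        exact Prod.ext rfl (by ring)
      · show ((k ^ n).1.2.2 : M8) * k.1.2.2 = _
        rw [ih.2.2, hs, smul_mul_smul_comm, one_mul, pow_succ]
  refine ⟨fun x hx => ?_, ?_⟩
  swap
  · have key : ∀ n : ℕ, k ^ n = 1 ↔ (n : K) * a = 0 ∧ s ^ n = 1 := by
      intro n
      constructor
      · intro h
        have h1 := (hpow n).2.1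
        have h2 := (hpow n).2.2
        rw [h] at h1 h2
        have e1 := congrArg Prod.snd (Equiv.ext_iff.1 h1 (0, 0))
        have e2 := congrFun (congrFun h2 0) 0
        simp [sh] at e1 e2
        exact ⟨mul_eq_zero.2 e1, e2.symm⟩
      · rintro ⟨h1, h2⟩
        refine Subtype.ext (Prod.ext (hpow n).1 (Prod.ext ?_ (Units.ext ?_)))
        · rw [(hpow n).2.1, h1]; exact Equiv.ext fun p => by simp [sh]
        · rw [(hpow n).2.2, h2, one_smul]; rfl
    refine (orderOf_eq_iff (by norm_num)).2 ⟨(key 6).2 (by rw [ha2, hs2]; decide), fun m hm hm0 h => ?_⟩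
    have := (key m).1 h
    rw [ha2, hs2] at this
    revert this
    interval_cases m <;> decide
  obtain ⟨b, r, hb, hr, hr1⟩ := ker_form x.2 (MonoidHom.mem_ker.1 hx)
  obtain ⟨n, hn1, hn2⟩ : ∃ n : ℕ, (n : K) * a = b ∧ s ^ n = r := by
    have : ∀ b r : K, r = 1 ∨ r = -1 → ∃ n : Fin 6, (n.val : K) * 2 = b ∧ (-1 : K) ^ n.val = r := by decide
    obtain ⟨n, h⟩ := this b r hr1
    exact ⟨n.val, by rw [ha2]; exact h.1, by rw [hs2]; exact h.2⟩
  refine Subgroup.mem_zpowers_iff.2 ⟨n, ?_⟩
  rw [zpow_natCast]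
  exact Subtype.ext (Prod.ext ((hpow n).1.trans (MonoidHom.mem_ker.1 hx).symm)
    (Prod.ext (by rw [(hpow n).2.1, hn1, hb]) (Units.ext (by rw [(hpow n).2.2, hn2, hr]))))

theorem card_kernel : Nat.card prX.ker = 6 := by
  obtain ⟨k, hk, -, hall, h6⟩ := exists_gen
  have e : prX.ker = Subgroup.zpowers k := le_antisymm hall (Subgroup.zpowers_le.2 hk)
  rw [e, Nat.card_zpowers, h6]

end CfsgLib.SchurMult.O73
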