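import Cfsg.Agent.Lib.ClassicalForms.Common
import Cfsg.Prelude.Def_Classical

/-!
An isomorphism of fields gives isomorphic groups `PΩ` of the standard odd-dimensional form.
-/

set_option autoImplicit false

namespace CfsgLib.SchurMult.O73

open Matrix

variable {F F' : Type*} [Field F] [Field F']

theorem map_isometryGroup_mem (r : F ≃+* F') {g : Matrix.GeneralLinearGroup (Unit ⊕ (Fin 3 ⊕ Fin 3)) F}
    (hg : g ∈ Cfsg.isometryGroup F (Cfsg.quadFormOdd 3 F)) :
    Units.map (RingHom.mapMatrix (r : F →+* F')).toMonoidHom g ∈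
      Cfsg.isometryGroup F' (Cfsg.quadFormOdd 3 F') := by
  intro v _
  let v₀ : Unit ⊕ (Fin 3 ⊕ Fin 3) → F := fun i => r.symm (v i)
  have hv : v = fun i => r (v₀ i) := funext fun i => (r.apply_symm_apply _).symm
  have hq : ∀ w : Unit ⊕ (Fin 3 ⊕ Fin 3) → F,
      Cfsg.quadFormOdd 3 F' (fun i => r (w i)) = r (Cfsg.quadFormOdd 3 F w) := fun w => by
    simp [Cfsg.quadFormOdd, map_sum]
  have hm : ((g : Matrix (Unit ⊕ (Fin 3 ⊕ Fin 3)) (Unit ⊕ (Fin 3 ⊕ Fin 3)) F).map r) *ᵥ v =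
      fun i => r ((g : Matrix (Unit ⊕ (Fin 3 ⊕ Fin 3)) (Unit ⊕ (Fin 3 ⊕ Fin 3)) F).mulVec v₀ i) := by
    rw [hv]
    funext i
    exact ((r : F →+* F').map_mulVec _ v₀ i).symm
  show Cfsg.quadFormOdd 3 F' (((g : Matrix (Unit ⊕ (Fin 3 ⊕ Fin 3)) (Unit ⊕ (Fin 3 ⊕ Fin 3)) F).map r) *ᵥ v) =
    Cfsg.quadFormOdd 3 F' v
  rw [hm, hq]
  conv_rhs => rw [hv, hq]
  exact congrArg r (hg v₀ v₀)

/-- The isomorphism of isometry groups. -/
noncomputable def isometryGroupRingEquiv (r : F ≃+* F') :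
    Cfsg.isometryGroup F (Cfsg.quadFormOdd 3 F) ≃* Cfsg.isometryGroup F' (Cfsg.quadFormOdd 3 F') where
  toFun g := ⟨_, map_isometryGroup_mem r g.2⟩
  invFun g := ⟨_, map_isometryGroup_mem r.symm g.2⟩
  left_inv g := Subtype.ext (Units.ext (Matrix.ext fun i j => r.symm_apply_apply _))
  right_inv g := Subtype.ext (Units.ext (Matrix.ext fun i j => r.apply_symm_apply _))
  map_mul' g h := Subtype.ext (map_mul _ g.1 h.1)

theorem nonempty_pOmega_ringEquiv (r : F ≃+* F') :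
    Nonempty (Cfsg.POmega F (Cfsg.quadFormOdd 3 F) ≃* Cfsg.POmega F' (Cfsg.quadFormOdd 3 F')) := by
  have h : (commutator (Cfsg.isometryGroup F (Cfsg.quadFormOdd 3 F))).map
      (isometryGroupRingEquiv r).toMonoidHom = commutator (Cfsg.isometryGroup F' (Cfsg.quadFormOdd 3 F')) := by
    rw [commutator_def, Subgroup.map_commutator,
      Subgroup.map_top_of_surjective _ (isometryGroupRingEquiv r).surjective]
    rfl
  exact ⟨CfsgLib.ClassicalForms.quotCenterCongr
    (((isometryGroupRingEquiv r).subgroupMap _).trans (MulEquiv.subgroupCongr h))⟩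

end CfsgLib.SchurMult.O73
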