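import Cfsg.Agent.Lib.SchurMult.O73.Cover
import Cfsg.Agent.Lib.SchurMult.O73.BoundThree
import Cfsg.Agent.Lib.SchurMult.O73.BoundTwo
import Cfsg.Agent.Lib.SchurMult.SmallSylow

/-!
The subgroup `3^5 : Ω₅(3)` of `Ω₇(3)`, and the Schur multiplier of `Ω₇(3)`.
-/

set_option autoImplicit false
set_option linter.unusedSectionVars false
set_option maxRecDepth 4000
set_option linter.style.haveILetI false

namespace CfsgLib.SchurMult.O73

open CfsgLib.SpSixTwo (K)
open CfsgLib.ClassicalForms QuadraticMap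
open scoped commutatorElement

local notation "oA" => Multiplicative.ofAdd

/-- The coordinates of a hyperbolic plane plus five squares. -/
def split : ((K × K) × Five.W) ≃ₗ[K] V7 where
  toFun x := ![x.1.1 + x.1.2 + x.2 4, x.1.1 + x.1.2 - x.2 4, x.1.1 - x.1.2,
    x.2 0 + x.2 1, x.2 0 - x.2 1, x.2 2 + x.2 3, x.2 2 - x.2 3]
  map_add' x y := by funext i; fin_cases i <;> simp <;> ring
  map_smul' c x := by funext i; fin_cases i <;> simp <;> ring
  invFun v := ((-(v 2 - v 0 - v 1), v 2 + v 0 + v 1),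
    ![-(v 3 + v 4), -(v 3 - v 4), -(v 5 + v 6), -(v 5 - v 6), -(v 0 - v 1)])
  left_inv x := by
    have h3 : (3 : K) = 0 := by decide
    obtain ⟨⟨a, b⟩, w⟩ := x
    refine Prod.ext (Prod.ext ?_ ?_) (funext fun i => ?_)
    · simp; linear_combination b * h3
    · simp; linear_combination a * h3
    · fin_cases i <;> simp
      · linear_combination -w 0 * h3
      · linear_combination -w 1 * h3
      · linear_combination -w 2 * h3
      · linear_combination -w 3 * h3
      · linear_combination -w 4 * h3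
  right_inv v := by
    have h3 : (3 : K) = 0 := by decide
    funext i
    fin_cases i <;> simp
    · linear_combination v 1 * h3
    · linear_combination v 0 * h3
    · linear_combination -v 2 * h3
    · linear_combination -v 3 * h3
    · linear_combination -v 4 * h3
    · linear_combination -v 5 * h3
    · linear_combination -v 6 * h3

theorem Q_split (x : (K × K) × Five.W) : Q7 (split x) = hypSum Five.Q5 x := by
  have h3 : (3 : K) = 0 := by decide
  obtain ⟨⟨a, b⟩, w⟩ := x
  rw [Q7, Classes.OmegaSeven.negSq_apply, hypSum_apply, Five.Q5_apply]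
  simp [Five.dt, Fin.sum_univ_seven, Fin.sum_univ_five, split]
  linear_combination (-(a * a) - a * b - b * b - (w 0 * w 0 + w 1 * w 1 + w 2 * w 2 + w 3 * w 3 + w 4 * w 4)) * h3

/-- The isometries of the split form as isometries of the form. -/
noncomputable def theta : orth (hypSum Five.Q5) ≃* O7 :=
  (orthCongr split Q_split).trans (isoMat Q7 fun _ => rfl).symm

theorem map_commutator_le {x : orth (hypSum Five.Q5)} (hx : x ∈ commutator (orth (hypSum Five.Q5))) :
    theta x ∈ Om := by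
  have := Subgroup.mem_map_of_mem theta.toMonoidHom hx
  rw [commutator_def, Subgroup.map_commutator] at this
  exact Subgroup.commutator_mono le_top le_top this

/-- The singular vector. -/
def u0 : (K × K) × Five.W := ((1, 0), 0)

/-- The second singular vector. -/
def f0 : (K × K) × Five.W := ((0, 1), 0)

theorem hu0 : hypSum Five.Q5 u0 = 0 := by simp [u0]

theorem hw0 (w : Five.W) : polar (hypSum Five.Q5) u0 ((0, 0), w) = 0 := by simp [polar_hypSum, u0]

/-- The transvection of a vector of the five-dimensional space. -/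
def sg5 (w : Five.W) : orth (hypSum Five.Q5) := siegel _ u0 ((0, 0), w) hu0 (hw0 w)

theorem sg5_mem (w : Five.W) : sg5 w ∈ commutator (orth (hypSum Five.Q5)) :=
  siegel_mem_commutator Five.nondeg_Q5.hypSum (by simp) hu0 (hw0 w)

theorem sg5_add (w w' : Five.W) : sg5 (w + w') = sg5 w * sg5 w' := by
  rw [sg5, sg5, sg5, siegel_mul]
  exact siegel_congr rfl (by simp) _ _

theorem sg5_f0 (w : Five.W) :
    ((sg5 w : orth (hypSum Five.Q5)) : ((K × K) × Five.W) ≃ₗ[K] (K × K) × Five.W) f0 =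
      ((-Five.Q5 w, 1), w) := by
  rw [sg5, siegel_apply]
  simp [polar_hypSum, u0, f0]

/-- The normal three-subgroup. -/
noncomputable def E : Five.MW →* Om where
  toFun w := ⟨theta (sg5 w.toAdd), map_commutator_le (sg5_mem _)⟩
  map_one' := Subtype.ext (by
    show theta (sg5 0) = 1
    have h := sg5_add 0 0
    rw [add_zero, eq_comm, mul_eq_left] at h
    rw [h, map_one])
  map_mul' x y := Subtype.ext (by
    show theta (sg5 (x.toAdd + y.toAdd)) = theta (sg5 x.toAdd) * theta (sg5 y.toAdd)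
    rw [sg5_add, map_mul])

/-- The complement. -/
noncomputable def lam : Five.Om5 →* Om :=
  (theta.toMonoidHom.comp ((hypExt Five.Q5).comp Five.Om5.subtype)).codRestrict Om fun g => by
    refine map_commutator_le ?_
    have h5 : (g : Five.O5) ∈ ⁅(⊤ : Subgroup Five.O5), ⊤⁆ := g.2
    have := Subgroup.mem_map_of_mem (hypExt Five.Q5) h5
    rw [Subgroup.map_commutator] at this
    exact Subgroup.commutator_mono le_top le_top this

theorem disj_eval {g : Five.Om5} {w : Five.MW} (h : lam g = E w) : g = 1 ∧ w = 1 := by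
  have h' : hypExt Five.Q5 g.1 = sg5 w.toAdd := theta.injective (congrArg Subtype.val h)
  have := congrArg (fun k : orth (hypSum Five.Q5) =>
    ((k : ((K × K) × Five.W) ≃ₗ[K] (K × K) × Five.W) f0).2) h'
  simp only [sg5_f0, hypExt_apply] at this
  have hw : w.toAdd = 0 := by rw [← this]; exact map_zero _
  refine ⟨Subtype.ext (hypExt_injective ?_), hw⟩
  rw [h', hw, Subgroup.coe_one, map_one]
  have h := sg5_add 0 0
  rwa [add_zero, eq_comm, mul_eq_left] at h

theorem setting {Γ : Type} [Group Γ] {σ : Γ →* Om} (hs : Function.Surjective σ)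
    (hc : σ.ker ≤ Subgroup.center Γ) (h3 : ∃ k : ℕ, ∀ z ∈ σ.ker, z ^ 3 ^ k = 1) :
    Five.Setting σ E lam where
  surj := hs
  central := hc
  three := h3
  inj := (injective_iff_map_eq_one E).2 fun w hw => (disj_eval (g := 1) (by rw [map_one, hw])).2
  conj g w := Subtype.ext (by
    show theta (hypExt Five.Q5 g.1) * theta (sg5 w) * (theta (hypExt Five.Q5 g.1))⁻¹ =
      theta (sg5 ((g.1 : Five.W ≃ₗ[K] Five.W) w))
    rw [← map_inv, ← map_mul, ← map_mul, sg5, conj_siegel]
    refine congrArg theta (siegel_congr ?_ ?_ _ _)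
    · rw [hypExt_apply, u0, map_zero]
    · rw [hypExt_apply])
  disj g w h := (disj_eval h).1

/-- The products of the module and the complement. -/
def HH : Subgroup Om where
  carrier := {x | ∃ (w : Five.MW) (g : Five.Om5), x = E w * lam g}
  one_mem' := ⟨1, 1, by rw [map_one, map_one, one_mul]⟩
  mul_mem' := fun {x y} ⟨w, g, hx⟩ ⟨w', g', hy⟩ => by
    have hcj := (setting (σ := MonoidHom.id Om) Function.surjective_id (by simp) ⟨0, by simp⟩).conj g w'.toAdd
    rw [show Multiplicative.ofAdd w'.toAdd = w' from rfl, mul_inv_eq_iff_eq_mul] at hcj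
    refine ⟨w * oA ((g.1 : Five.W ≃ₗ[K] Five.W) w'.toAdd), g * g', ?_⟩
    rw [hx, hy, map_mul, map_mul, mul_assoc (E w), ← mul_assoc (lam g), hcj]
    group
  inv_mem' := fun {x} ⟨w, g, hx⟩ => by
    have hcj := (setting (σ := MonoidHom.id Om) Function.surjective_id (by simp) ⟨0, by simp⟩).conj g⁻¹ w⁻¹.toAdd
    rw [show Multiplicative.ofAdd w⁻¹.toAdd = w⁻¹ from rfl, map_inv lam, inv_inv] at hcj
    refine ⟨oA (((g⁻¹).1 : Five.W ≃ₗ[K] Five.W) w⁻¹.toAdd), g⁻¹, ?_⟩
    rw [← hcj, hx, mul_inv_rev, map_inv, map_inv]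
    group

theorem card_HH : Nat.card HH = 3 ^ 5 * Nat.card Five.Om5 := by
  let f : Five.MW × Five.Om5 → HH := fun p => ⟨E p.1 * lam p.2, p.1, p.2, rfl⟩
  have hf : Function.Bijective f := by
    refine ⟨fun p q h => ?_, fun ⟨x, w, g, hx⟩ => ⟨(w, g), Subtype.ext hx.symm⟩⟩
    have h' : E p.1 * lam p.2 = E q.1 * lam q.2 := congrArg Subtype.val h
    have h2 : lam (p.2 * q.2⁻¹) = E (p.1⁻¹ * q.1) := by
      rw [map_mul, map_mul, map_inv, map_inv, eq_inv_mul_iff_mul_eq, ← mul_assoc, h', mul_inv_cancel_right]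
    obtain ⟨e1, e2⟩ := disj_eval h2
    exact Prod.ext (inv_mul_eq_one.1 e2) (mul_inv_eq_one.1 e1)
  rw [← Nat.card_eq_of_bijective f hf, Nat.card_prod, show Nat.card Five.MW = 3 ^ 5 from ?_]
  rw [Nat.card_eq_fintype_card, Fintype.card_multiplicative, Fintype.card_pi]
  simp

theorem HH_le : HH ≤ E.range ⊔ lam.range := fun _ ⟨w, g, hx⟩ => by
  rw [hx]
  exact mul_mem (Subgroup.mem_sup_left ⟨w, rfl⟩) (Subgroup.mem_sup_right ⟨g, rfl⟩)

theorem three_dvd_Om5 : 3 ^ 4 ∣ Nat.card Five.Om5 := by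
  obtain ⟨e⟩ := Five.nonempty_psp
  rw [← Nat.card_congr e.toEquiv]
  have h := Subgroup.card_eq_card_quotient_mul_card_subgroup
    (Subgroup.center (Matrix.symplecticGroup (Fin 2) K))
  rw [ClassicalLinear.card_center_sp (by norm_num), ClassicalLinear.card_sp, ZMod.card] at h
  show 3 ^ 4 ∣ Nat.card (Matrix.symplecticGroup (Fin 2) K ⧸ _)
  refine (Nat.Coprime.dvd_mul_right (show Nat.Coprime (3 ^ 4) (Nat.gcd 2 (3 - 1)) by decide)).1 ?_
  rw [← h]
  exact Dvd.intro _ rfl

theorem card_Om : Nat.card Om = 4585351680 := by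
  obtain ⟨L, hL⟩ := Classes.OmegaSeven.exists_isometry (F := K) two_ne_K
  obtain ⟨e⟩ := Classes.OmegaSeven.nonempty_omega_equiv L hL
  have e' : Om ≃* Cfsg.POmega K (Cfsg.quadFormOdd 3 K) :=
    (((QuotientGroup.quotientMulEquivOfEq center_eq_bot).trans QuotientGroup.quotientBot).symm).trans
      (CfsgLib.ClassicalForms.quotCenterCongr e)
  have h := card_pOmega_odd (F := K) two_ne_K (m := 3) (by norm_num)
  have h' := card_orth_qOdd (F := K) two_ne_K 3
  rw [← h, ← Nat.card_congr e'.toEquiv, Nat.card_zmod] at h'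
  simp only [Finset.prod_range_succ, Finset.prod_range_zero] at h'
  push_cast at h'
  omega

/-- Central elements of the commutator subgroup of a preimage are killed by the order of the subgroup. -/
theorem pow_card_eq_one {G Γ : Type} [Group G] [Group Γ] [Finite Γ] {σ : Γ →* G}
    (hc : σ.ker ≤ Subgroup.center Γ) (P : Subgroup G) {z : Γ}
    (hz : z ∈ ⁅P.comap σ, P.comap σ⁆) (hzk : z ∈ σ.ker) : z ^ Nat.card P = 1 := by
  set D := P.comap σ
  obtain ⟨z', hz', rfl⟩ : z ∈ (commutator D).map D.subtype := by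
    rw [commutator_def, Subgroup.map_commutator, ← MonoidHom.range_eq_map, Subgroup.range_subtype]
    exact hz
  let τ : D →* P := (σ.comp D.subtype).codRestrict P fun x => x.2
  have hker : ∀ x : D, x ∈ τ.ker → x ∈ Subgroup.center D := fun x hx => by
    have hx' : x.1 ∈ σ.ker := congrArg Subtype.val (MonoidHom.mem_ker.1 hx)
    exact Subgroup.mem_center_iff.2 fun y => Subtype.ext (Subgroup.mem_center_iff.1 (hc hx') y.1)
  have hzt : z' ∈ τ.ker := Subtype.ext hzk
  have hp := pow_index_mem_commutator τ.ker (hker _ hzt) hz'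
  have hb : ⁅τ.ker, τ.ker⁆ = ⊥ := by
    rw [eq_bot_iff, Subgroup.commutator_le]
    intro a ha b _
    rw [Subgroup.mem_bot, commutatorElement_eq_one_iff_mul_comm]
    exact (Subgroup.mem_center_iff.1 (hker _ ha) b).symm
  rw [hb, Subgroup.mem_bot, Subgroup.index_ker] at hp
  have hpow : z' ^ Nat.card P = 1 := by
    obtain ⟨q, hq⟩ := Subgroup.card_subgroup_dvd_card τ.range
    rw [hq, pow_mul, hp, one_pow]
  show z'.1 ^ Nat.card P = 1
  rw [← Subgroup.coe_pow, hpow, Subgroup.coe_one]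

/-- The `3`-part of the bound. -/
theorem exists_bound_three {Γ : Type} [Group Γ] [Finite Γ] {σ : Γ →* Om} (hσ : Cfsg.IsStemExtension σ) :
    ∃ P : Subgroup Om, ¬ 3 ∣ P.index ∧ ∃ c : Γ, c ^ 3 = 1 ∧
      ∀ z ∈ ⁅P.comap σ, P.comap σ⁆, z ∈ σ.ker → z ∈ Subgroup.zpowers c := by
  haveI : Fact (Nat.Prime 3) := ⟨Nat.prime_three⟩
  have hdvd : 3 ^ 9 ∣ Nat.card HH := by
    rw [card_HH]
    exact mul_dvd_mul_left (3 ^ 5) three_dvd_Om5
  obtain ⟨P, hP⟩ := Sylow.exists_subgroup_card_pow_prime 3 hdvd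
  refine ⟨P.map HH.subtype, ?_, ?_⟩
  · have h := Subgroup.card_mul_index (P.map HH.subtype)
    rw [Subgroup.card_map_of_injective HH.subtype_injective, hP, card_Om] at h
    omega
  -- divide out the part of the kernel prime to three
  let N : Subgroup Γ :=
    { carrier := {z | z ∈ σ.ker ∧ z ^ 232960 = 1}
      one_mem' := ⟨one_mem _, one_pow _⟩
      mul_mem' := fun {a b} ha hb => ⟨mul_mem ha.1 hb.1, by
        rw [(show Commute a b from (Subgroup.mem_center_iff.1 (hσ.2.1 hb.1) a)).mul_pow, ha.2, hb.2, one_mul]⟩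
      inv_mem' := fun {a} ha => ⟨inv_mem ha.1, by rw [inv_pow, ha.2, inv_one]⟩ }
  haveI : N.Normal := ⟨fun z hz g => by
    rw [Subgroup.mem_center_iff.1 (hσ.2.1 hz.1) g, mul_inv_cancel_right]
    exact hz⟩
  let σ' : Γ ⧸ N →* Om := QuotientGroup.lift N σ fun z hz => hz.1
  have hk : ∀ x : Γ ⧸ N, x ∈ σ'.ker → ∃ y ∈ σ.ker, (y : Γ ⧸ N) = x := fun x hx => by
    obtain ⟨y, rfl⟩ := QuotientGroup.mk_surjective x
    exact ⟨y, hx, rfl⟩
  have hs : Function.Surjective σ' := fun g => by
    obtain ⟨x, hx⟩ := hσ.1 g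
    exact ⟨x, hx⟩
  have hc : σ'.ker ≤ Subgroup.center (Γ ⧸ N) := fun x hx => by
    obtain ⟨y, hy, rfl⟩ := hk x hx
    refine Subgroup.mem_center_iff.2 fun g => ?_
    obtain ⟨g, rfl⟩ := QuotientGroup.mk_surjective g
    exact congrArg (QuotientGroup.mk (s := N)) (Subgroup.mem_center_iff.1 (hσ.2.1 hy) g)
  have h3 : ∃ k : ℕ, ∀ z ∈ σ'.ker, z ^ 3 ^ k = 1 := ⟨9, fun x hx => by
    obtain ⟨y, hy, rfl⟩ := hk x hx
    rw [← QuotientGroup.mk_pow, QuotientGroup.eq_one_iff]
    refine ⟨pow_mem hy _, ?_⟩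
    rw [← pow_mul]
    have := ker_pow_card hσ hy
    rwa [card_Om] at this⟩
  obtain ⟨c0, hc0, hc03, hbound⟩ := (setting hs hc h3).exists_bound
  obtain ⟨y, hy, rfl⟩ := hk c0 hc0
  rw [← QuotientGroup.mk_pow, QuotientGroup.eq_one_iff] at hc03
  refine ⟨(y ^ 232960) ^ 1843, ?_, fun z hz hzk => ?_⟩
  · rw [← pow_mul, ← pow_mul, show 232960 * 1843 * 3 = 3 * 232960 * 1843 by norm_num, pow_mul, pow_mul,
      hc03.2, one_pow]
  have hmk : (QuotientGroup.mk' N z) ∈ ⁅(E.range ⊔ lam.range).comap σ', (E.range ⊔ lam.range).comap σ'⁆ := by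
    have hle : ((P.map HH.subtype).comap σ).map (QuotientGroup.mk' N) ≤ (E.range ⊔ lam.range).comap σ' := by
      rintro _ ⟨x, hx, rfl⟩
      obtain ⟨p, -, hp⟩ : σ x ∈ P.map HH.subtype := hx
      show σ x ∈ E.range ⊔ lam.range
      rw [← hp]
      exact HH_le p.2
    have := Subgroup.mem_map_of_mem (QuotientGroup.mk' N) hz
    rw [Subgroup.map_commutator] at this
    exact Subgroup.commutator_mono hle hle this
  obtain ⟨n, hn⟩ := hbound _ hmk hzk
  have hyz : (y ^ n)⁻¹ * z ∈ N := by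
    rw [← QuotientGroup.eq, QuotientGroup.mk_zpow]
    exact hn
  have hz3 : z ^ (3 ^ 9) = 1 := by
    have := pow_card_eq_one hσ.2.1 _ hz hzk
    rwa [Subgroup.card_map_of_injective HH.subtype_injective, hP] at this
  refine ⟨n, ?_⟩
  have e1 : z = y ^ n * ((y ^ n)⁻¹ * z) := (mul_inv_cancel_left _ _).symm
  have e2 : (z ^ 232960) ^ 1843 = z := by
    rw [← pow_mul, show 232960 * 1843 = 3 ^ 9 * 21813 + 1 by norm_num, pow_succ, pow_mul, hz3, one_pow, one_mul]
  have e3 : z ^ 232960 = (y ^ n) ^ 232960 := by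
    conv_lhs => rw [e1]
    rw [(show Commute (y ^ n) ((y ^ n)⁻¹ * z) from Subgroup.mem_center_iff.1 (hσ.2.1 hyz.1) _).mul_pow,
      hyz.2, mul_one]
  show ((y ^ 232960) ^ 1843) ^ n = z
  rw [← e2, e3, ← pow_mul, ← pow_mul, ← zpow_natCast, ← zpow_natCast, ← zpow_mul, ← zpow_mul, mul_comm]

/-- The Schur multiplier of `Ω₇(3)`. -/
theorem hasCyclicSchurMultiplier_Om : Cfsg.HasCyclicSchurMultiplier Om 6 := by
  let τ : Cov →* Om := prX.codRestrict Om fun x => range_prX ▸ ⟨x, rfl⟩
  have hker : τ.ker = prX.ker := MonoidHom.ker_codRestrict prX Om _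
  obtain ⟨k, hk, hkc, hall, h6⟩ := exists_gen
  have hz : τ.ker = Subgroup.zpowers k := by
    rw [hker]; exact le_antisymm hall (Subgroup.zpowers_le.2 hk)
  have hτ : Cfsg.IsStemExtension τ := by
    refine ⟨fun g => ?_, by rw [hker]; exact ker_le_center, by rw [hz]; exact Subgroup.zpowers_le.2 hkc⟩
    obtain ⟨x, hx⟩ : (g : O7) ∈ prX.range := by rw [range_prX]; exact g.2
    exact ⟨x, Subtype.ext hx⟩
  refine hasCyclicSchurMultiplier_of_local (by norm_num) τ hτ (by rw [hz]; infer_instance)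
    (by rw [hker, card_kernel]) fun Γ _ _ σ hσ p hp hpd => ?_
  have hf : ∀ {c : Γ} {q : ℕ}, q.Prime → q ∣ 6 → c ^ q = 1 → c ^ q ^ (6 : ℕ).factorization q = 1 := by
    intro c q hq hq6 hc
    obtain ⟨r, hr⟩ := dvd_pow_self q (hq.factorization_pos_of_dvd (by norm_num : (6 : ℕ) ≠ 0) hq6).ne'
    rw [hr, pow_mul, hc, one_pow]
  by_cases h2 : p = 2
  · subst h2
    refine ⟨Two.embOm.range, ?_, ?_⟩
    · have h := Subgroup.card_mul_index Two.embOm.range
      rw [Two.card_range, card_Om] at h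
      omega
    · obtain ⟨c, hc, hb⟩ := Two.exists_bound hσ.1 hσ.2.1
      exact ⟨c, hf hp (by norm_num) hc, hb⟩
  by_cases h3 : p = 3
  · subst h3
    obtain ⟨P, hP, c, hc, hb⟩ := exists_bound_three hσ
    exact ⟨P, hP, c, hf hp (by norm_num) hc, hb⟩
  haveI : Fact p.Prime := ⟨hp⟩
  obtain ⟨P⟩ : Nonempty (Sylow p Om) := inferInstance
  refine ⟨P, P.not_dvd_index, 1, one_pow _, fun z hz' _ => ?_⟩
  have hp' : p = 5 ∨ p = 7 ∨ p = 13 := by
    rw [card_Om, show (4585351680 : ℕ) = 2 ^ 9 * 3 ^ 9 * 5 * 7 * 13 by norm_num] at hpd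
    have hq : ∀ {q : ℕ}, q.Prime → p ∣ q → p = q := fun hq h => (Nat.prime_dvd_prime_iff_eq hp hq).1 h
    rcases hp.dvd_mul.1 hpd with h | h
    · rcases hp.dvd_mul.1 h with h | h
      · rcases hp.dvd_mul.1 h with h | h
        · rcases hp.dvd_mul.1 h with h | h
          · exact absurd (hq Nat.prime_two (hp.dvd_of_dvd_pow h)) h2
          · exact absurd (hq Nat.prime_three (hp.dvd_of_dvd_pow h)) h3
        · exact Or.inl (hq (by norm_num) h)
      · exact Or.inr (Or.inl (hq (by norm_num) h))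
    · exact Or.inr (Or.inr (hq (by norm_num) h))
  have hcyc : IsCyclic (P : Subgroup Om) := by
    obtain ⟨m, hm⟩ := IsPGroup.iff_card.1 P.isPGroup'
    have hd : p ^ m ∣ 4585351680 := by rw [← hm, ← card_Om]; exact Subgroup.card_subgroup_dvd_card _
    have hm1 : m ≤ 1 := by
      by_contra hlt
      have : p ^ 2 ∣ 4585351680 := (pow_dvd_pow p (by omega)).trans hd
      rcases hp' with rfl | rfl | rfl <;> norm_num at this
    interval_cases m
    · haveI := (Nat.card_eq_one_iff_unique.1 (by rw [hm, pow_zero])).1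
      exact isCyclic_of_subsingleton
    · exact isCyclic_of_prime_card (p := p) (by rw [hm, pow_one])
  rw [commutator_comap_eq_bot_of_isCyclic hσ.2.1 hσ.1, Subgroup.mem_bot] at hz'
  rw [hz']; exact one_mem _

end CfsgLib.SchurMult.O73
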