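import Cfsg.Agent.Lib.ClassicalForms.Ortho.POmega
import Cfsg.Agent.Lib.ClassicalForms.Ortho.POmegaCard
import Cfsg.Agent.Lib.ClassicalForms.Exceptional.FiveSp
import Cfsg.Agent.Lib.ClassicalLinear.SympSimple
import Mathlib.Data.ZMod.Basic

/-!
The orthogonal group of the sum of five squares over three elements: signed permutations, the isometries
`-refl a` of the vectors with `Q a = 1`, and their generation of the commutator subgroup.
-/

set_option autoImplicit false
set_option linter.unusedSectionVars false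

namespace CfsgLib.SchurMult.O73.Five

open CfsgLib.ClassicalForms QuadraticMap
open scoped commutatorElement

/-- The field. -/
abbrev K := ZMod 3

/-- Five coordinates. -/
abbrev W := Fin 5 → K

/-- The dot product. -/
def dt (x y : W) : K := ∑ i, x i * y i

/-- The sum of five squares. -/
def Q5 : QuadraticForm K W := QuadraticMap.weightedSumSquares K fun _ : Fin 5 => (1 : K)

theorem Q5_apply (x : W) : Q5 x = dt x x := by simp [Q5, weightedSumSquares_apply, dt]

theorem polar_Q5 (x y : W) : polar Q5 x y = 2 * dt x y := by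
  simp only [polar, Q5_apply, dt, Fin.sum_univ_five, Pi.add_apply]
  ring

theorem two_ne : (2 : K) ≠ 0 := by decide

theorem nondeg_Q5 : Nondeg Q5 := fun x hx => funext fun i => by
  have h := hx (Pi.single i 1)
  rw [polar_Q5] at h
  simpa [dt, two_ne, Pi.single_apply] using h

/-- The group. -/
abbrev O5 := orth Q5

/-- Its commutator subgroup. -/
abbrev Om5 : Subgroup O5 := commutator O5

/-- A basis change from the standard form. -/
def std (v : Unit ⊕ (Fin 2 ⊕ Fin 2) → K) : W :=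
  v (.inl ()) • ![1, 0, 0, 0, 0] + v (.inr (.inl 0)) • ![0, 1, 1, 1, 0] + v (.inr (.inl 1)) • ![0, 1, -1, 0, 1] +
    v (.inr (.inr 0)) • ![0, 2, 2, 1, 0] + v (.inr (.inr 1)) • ![0, 2, 1, 0, 1]

theorem std_spec : ∀ a x y z t : K,
    (dt (a • ![1, 0, 0, 0, 0] + x • ![0, 1, 1, 1, 0] + y • ![0, 1, -1, 0, 1] + z • ![0, 2, 2, 1, 0] +
      t • ![0, 2, 1, 0, 1]) (a • ![1, 0, 0, 0, 0] + x • ![0, 1, 1, 1, 0] + y • ![0, 1, -1, 0, 1] + z • ![0, 2, 2, 1, 0] +
      t • ![0, 2, 1, 0, 1]) = a ^ 2 + (x * z + y * t)) ∧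
    (a • ![1, 0, 0, 0, 0] + x • ![0, 1, 1, 1, 0] + y • ![0, 1, -1, 0, 1] + z • ![0, 2, 2, 1, 0] +
      t • ![0, 2, 1, 0, 1] = (0 : W) → a = 0 ∧ x = 0 ∧ y = 0 ∧ z = 0 ∧ t = 0) := by
  decide +kernel

theorem exists_stdEquiv : ∃ e : (Unit ⊕ (Fin 2 ⊕ Fin 2) → K) ≃ₗ[K] W, ∀ v, Q5 (e v) = qOdd 2 K v := by
  let L : (Unit ⊕ (Fin 2 ⊕ Fin 2) → K) →ₗ[K] W :=
    { toFun := std
      map_add' := fun v w => by simp only [std, Pi.add_apply]; module
      map_smul' := fun c v => by simp only [std, Pi.smul_apply, smul_eq_mul, RingHom.id_apply]; module }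
  have hinj : Function.Injective L := by
    refine (injective_iff_map_eq_zero L).2 fun v hv => ?_
    obtain ⟨h0, h1, h2, h3, h4⟩ := (std_spec _ _ _ _ _).2 hv
    funext i
    rcases i with i | i | i
    · exact h0
    · fin_cases i <;> assumption
    · fin_cases i <;> assumption
  refine ⟨LinearEquiv.ofBijective L ⟨hinj,
    (LinearMap.injective_iff_surjective_of_finrank_eq_finrank (by simp)).1 hinj⟩, fun v => ?_⟩
  show Q5 (std v) = _
  rw [Q5_apply, std, (std_spec _ _ _ _ _).1, qOdd_apply]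
  simp [Cfsg.quadFormOdd, Fin.sum_univ_two]

/-- The commutator subgroup is `PSp₄(3)`. -/
theorem nonempty_psp : Nonempty (Cfsg.PSp 2 K ≃* Om5) := by
  obtain ⟨e, he⟩ := exists_stdEquiv
  obtain ⟨f⟩ := nonempty_pOmega_five (F := K) (by rw [Nat.card_eq_fintype_card]; decide)
  have hn : 5 ≤ Fintype.card (Unit ⊕ (Fin 2 ⊕ Fin 2)) := by simp
  have hQ := nondeg_qOdd (F := K) two_ne 2
  have hg := isGen_qOdd (F := K) two_ne 2
  have hc : Subgroup.center (siegelGroup (qOdd 2 K)) = ⊥ := by
    refine Subgroup.card_eq_one.1 ?_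
    rw [card_center_siegelGroup two_ne hQ hn, if_neg]
    rw [negI_mem_iff two_ne hQ hn hg]
    rintro ⟨h, -⟩
    simp [parity_simps] at h
  exact ⟨((f.symm.trans (pOmegaEquiv (qOdd 2 K) (qOdd_apply 2) (commutator_qOdd two_ne le_rfl))).trans
    ((QuotientGroup.quotientMulEquivOfEq hc).trans QuotientGroup.quotientBot)).trans
    ((MulEquiv.subgroupCongr (commutator_qOdd two_ne le_rfl).symm).trans (commutatorCongr (orthCongr e he)))⟩

theorem isSimpleGroup_Om5 : IsSimpleGroup Om5 := by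
  obtain ⟨e⟩ := nonempty_psp
  have := CfsgLib.ClassicalLinear.isSimpleGroup_psp (F := K) (m := 2) le_rfl (Or.inr (Or.inl two_ne))
  exact e.symm.isSimpleGroup

/-- The reflection in a vector with `Q a = 1`. -/
def rl (a : W) (ha : dt a a = 1) : O5 := refl Q5 a (by rw [Q5_apply, ha]; exact one_ne_zero)

theorem rl_apply (a : W) (ha : dt a a = 1) (x : W) : (rl a ha : W ≃ₗ[K] W) x = x + dt x a • a := by
  rw [rl, refl_apply, Q5_apply, ha, inv_one, one_mul, polar_Q5,
    show (2 : K) * dt x a = -(dt x a) from (show ∀ s : K, 2 * s = -s by decide) _, neg_smul, sub_neg_eq_add]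

/-- The negated reflection. -/
def T (a : W) (ha : dt a a = 1) : O5 := negI Q5 * rl a ha

theorem T_apply (a : W) (ha : dt a a = 1) (x : W) : (T a ha : W ≃ₗ[K] W) x = -(x + dt x a • a) := by
  rw [T, orth_mul_apply, rl_apply, negI_apply]

theorem T_neg {a : W} (ha : dt a a = 1) {x : W} (h : dt x a = 0) : (T a ha : W ≃ₗ[K] W) x = -x := by
  rw [T_apply, h, zero_smul, add_zero]

theorem T_self {a : W} (ha : dt a a = 1) : (T a ha : W ≃ₗ[K] W) a = a := by
  rw [T_apply, ha, one_smul]
  funext i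
  exact (show ∀ s : K, -(s + s) = s by decide) _

theorem T_sq {a : W} (ha : dt a a = 1) : T a ha * T a ha = 1 := by
  refine orth_ext fun x => ?_
  have hd : dt (-(x + dt x a • a)) a = -(dt x a + dt x a) := by
    rw [show dt (-(x + dt x a • a)) a = -(dt x a + dt x a * dt a a) by
      simp [dt, Finset.sum_add_distrib, Finset.mul_sum, add_mul, mul_assoc], ha, mul_one]
  rw [orth_mul_apply, T_apply a ha x, T_apply a ha, hd, orth_one_apply,
    show -(dt x a + dt x a) = dt x a from (show ∀ s : K, -(s + s) = s by decide) _]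
  module

theorem dt_apply (g : O5) (x y : W) : dt ((g : W ≃ₗ[K] W) x) ((g : W ≃ₗ[K] W) y) = dt x y := by
  have h := polar_apply g x y
  rw [polar_Q5, polar_Q5] at h
  exact (mul_right_inj' two_ne).1 h

theorem conj_T (g : O5) {a b : W} (ha : dt a a = 1) (hb : dt b b = 1)
    (h : (g : W ≃ₗ[K] W) a = b ∨ (g : W ≃ₗ[K] W) a = -b) : g * T a ha * g⁻¹ = T b hb := by
  refine orth_ext fun x => ?_
  rw [orth_mul_apply, orth_mul_apply, T_apply, map_neg, map_add, map_smul, orth_apply_inv, T_apply,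
    ← dt_apply g _ a, orth_apply_inv]
  rcases h with h | h
  · rw [h]
  · rw [h, show dt x (-b) = -dt x b by simp [dt], smul_neg, neg_smul, neg_neg]

theorem rl_mul_rl_mem {a c : W} (ha : dt a a = 1) (hc : dt c c = 1) (hac : dt a c = 0) :
    rl a ha * rl c hc ∈ Om5 := by
  have hca : dt c a = 0 := by rw [← hac]; exact Finset.sum_congr rfl fun i _ => mul_comm _ _
  have hs : Q5 (a - c) ≠ 0 := by
    rw [map_sub_eq, Q5_apply, Q5_apply, polar_Q5, ha, hc, hac]; decide
  have hr := refl_sub_apply (Q := Q5) (u := a) (w := c) (by rw [Q5_apply, Q5_apply, ha, hc]) hs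
  have e : refl Q5 (a - c) hs * rl a ha * (refl Q5 (a - c) hs)⁻¹ = rl c hc := by
    rw [rl, conj_refl, refl_congr hr]; rfl
  have hm : ⁅rl a ha, refl Q5 (a - c) hs⁆ ∈ Om5 :=
    Subgroup.commutator_mem_commutator (Subgroup.mem_top _) (Subgroup.mem_top _)
  rw [commutatorElement_def, show (rl a ha)⁻¹ = rl a ha from refl_inv _ _] at hm
  rw [mul_assoc (rl a ha), mul_assoc (rl a ha)] at hm
  rwa [e] at hm

/-- A coordinate vector. -/
def ev (i : Fin 5) : W := Pi.single i 1

theorem dt_ev : ∀ i j : Fin 5, dt (ev i) (ev j) = if i = j then 1 else 0 := by decide +kernel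

theorem ev_one (i : Fin 5) : dt (ev i) (ev i) = 1 := by rw [dt_ev, if_pos rfl]

/-- Four ones. -/
def bb : W := ![1, 1, 1, 1, 0]

/-- Two ones and two minus ones. -/
def aa : W := ![1, 1, -1, -1, 0]

theorem bb_one : dt bb bb = 1 := by decide +kernel

theorem aa_one : dt aa aa = 1 := by decide +kernel

theorem T_prod_four {a a1 a2 a3 a4 : W} (ha : dt a a = 1) (h1 : dt a1 a1 = 1) (h2 : dt a2 a2 = 1)
    (h3 : dt a3 a3 = 1) (h4 : dt a4 a4 = 1)
    (h : ∀ x : W, -(x + dt x a • a) =
      let r := fun (b x : W) => x + dt x b • b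
      r a1 (r a2 (r a3 (r a4 x))))
    (h12 : dt a1 a2 = 0) (h34 : dt a3 a4 = 0) : T a ha ∈ Om5 := by
  have e : T a ha = (rl a1 h1 * rl a2 h2) * (rl a3 h3 * rl a4 h4) := by
    refine orth_ext fun x => ?_
    rw [T_apply, h x]
    simp only [orth_mul_apply, rl_apply]
  rw [e]
  exact mul_mem (rl_mul_rl_mem h1 h2 h12) (rl_mul_rl_mem h3 h4 h34)

theorem T_bb_mem : T bb bb_one ∈ Om5 :=
  T_prod_four (a1 := aa) (a2 := ![1, -1, 1, -1, 0]) (a3 := ![1, -1, -1, 1, 0]) (a4 := ev 4) bb_one aa_one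
    (by decide +kernel) (by decide +kernel) (ev_one 4) (by decide +kernel) (by decide +kernel) (by decide +kernel)

theorem T_ev_zero_mem : T (ev 0) (ev_one 0) ∈ Om5 :=
  T_prod_four (a1 := ev 1) (a2 := ev 2) (a3 := ev 3) (a4 := ev 4) (ev_one 0) (ev_one 1) (ev_one 2) (ev_one 3)
    (ev_one 4) (by decide +kernel) (by decide +kernel) (by decide +kernel)

/-- A signed permutation as a linear map. -/
def monoFun (e : Fin 5 → Bool) (π : Equiv.Perm (Fin 5)) (x : W) : W :=
  fun i => (if e i then -1 else 1) * x (π.symm i)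

/-- A signed permutation. -/
def mono (e : Fin 5 → Bool) (π : Equiv.Perm (Fin 5)) : O5 :=
  ⟨{ toFun := monoFun e π
     invFun := fun y j => (if e (π j) then -1 else 1) * y (π j)
     left_inv := fun x => funext fun j => by
       simp only [monoFun, Equiv.symm_apply_apply]
       cases e (π j) <;> simp
     right_inv := fun y => funext fun i => by
       simp only [monoFun, Equiv.apply_symm_apply]
       cases e i <;> simp
     map_add' := fun x y => funext fun i => by simp only [monoFun, Pi.add_apply, mul_add]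
     map_smul' := fun c x => funext fun i => by
       simp only [monoFun, Pi.smul_apply, smul_eq_mul, RingHom.id_apply]; ring },
    fun x => by
      show Q5 (monoFun e π x) = Q5 x
      rw [Q5_apply, Q5_apply, dt, dt, ← Equiv.sum_comp π.symm (fun i => x i * x i)]
      refine Finset.sum_congr rfl fun i _ => ?_
      simp only [monoFun]
      cases e i <;> simp⟩

theorem mono_apply (e : Fin 5 → Bool) (π : Equiv.Perm (Fin 5)) (x : W) :
    (mono e π : W ≃ₗ[K] W) x = monoFun e π x := rfl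

theorem mono_ev (e : Fin 5 → Bool) (π : Equiv.Perm (Fin 5)) (i : Fin 5) :
    (mono e π : W ≃ₗ[K] W) (ev i) = (if e (π i) then -1 else 1 : K) • ev (π i) := by
  rw [mono_apply]
  funext j
  simp only [monoFun, ev, Pi.smul_apply, smul_eq_mul]
  by_cases h : j = π i
  · subst h; simp
  · rw [Pi.single_eq_of_ne h, Pi.single_eq_of_ne (fun e' => h (by rw [← e']; simp))]
    simp

/-- The permutations. -/
def permHom5 : Equiv.Perm (Fin 5) →* O5 :=
  MonoidHom.mk' (fun π => mono (fun _ => false) π) fun π τ => orth_ext fun x => by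
    rw [orth_mul_apply, mono_apply, mono_apply, mono_apply]
    funext i
    simp [monoFun, Equiv.Perm.mul_def]

theorem perm_mem5 {π : Equiv.Perm (Fin 5)} (h : Equiv.Perm.sign π = 1) : mono (fun _ => false) π ∈ Om5 := by
  have hπ : π ∈ commutator (Equiv.Perm (Fin 5)) := by
    rw [alternatingGroup.commutator_perm_eq (by simp)]; exact h
  have h1 := Subgroup.mem_map_of_mem permHom5 hπ
  rw [commutator_def, Subgroup.map_commutator] at h1
  exact Subgroup.commutator_mono le_top le_top h1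

/-- The parity of a sign vector. -/
def evenSigns (e : Fin 5 → Bool) : Bool := !(e 0 ^^ e 1 ^^ e 2 ^^ e 3 ^^ e 4)

theorem signs_split : ∀ e : Fin 5 → Bool, evenSigns e = true → ∀ x : W,
    monoFun e 1 x =
      (let r := fun (b x : W) => x + dt x b • b
       let f := fun (i : Fin 5) (x : W) => if e i then r (ev i) (r (ev 4) x) else x
       f 0 (f 1 (f 2 (f 3 x)))) := by
  decide +kernel

theorem mono_mem {e : Fin 5 → Bool} {π : Equiv.Perm (Fin 5)} (he : evenSigns e = true)
    (hπ : Equiv.Perm.sign π = 1) : mono e π ∈ Om5 := by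
  have hsplit : mono e π = mono e 1 * mono (fun _ => false) π := orth_ext fun x => by
    rw [orth_mul_apply, mono_apply, mono_apply, mono_apply]
    funext i
    simp [monoFun, Equiv.Perm.one_def]
  rw [hsplit]
  refine mul_mem ?_ (perm_mem5 hπ)
  let f : Fin 5 → O5 := fun i => if e i then rl (ev i) (ev_one i) * rl (ev 4) (ev_one 4) else 1
  have hf : ∀ i : Fin 5, i ≠ 4 → f i ∈ Om5 := fun i hi => by
    simp only [f]
    split_ifs
    · exact rl_mul_rl_mem _ _ (by rw [dt_ev, if_neg hi])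
    · exact one_mem _
  have hfa : ∀ (i : Fin 5) (x : W), (f i : W ≃ₗ[K] W) x =
      if e i then (fun (b x : W) => x + dt x b • b) (ev i) ((fun (b x : W) => x + dt x b • b) (ev 4) x) else x :=
    fun i x => by
      simp only [f]
      split_ifs
      · rw [orth_mul_apply, rl_apply, rl_apply]
      · rw [orth_one_apply]
  have he' : mono e 1 = f 0 * (f 1 * (f 2 * f 3)) := orth_ext fun x => by
    rw [mono_apply, signs_split e he x]
    simp only [orth_mul_apply, hfa]
  rw [he']
  exact mul_mem (hf 0 (by decide)) (mul_mem (hf 1 (by decide)) (mul_mem (hf 2 (by decide)) (hf 3 (by decide))))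

/-- The cycle of the five coordinates. -/
def cyc (k : Fin 5) : Equiv.Perm (Fin 5) := Equiv.addRight k

theorem cyc_sign : ∀ k, Equiv.Perm.sign (cyc k) = 1 := by decide +kernel

/-- The signed permutations with even sign vector and even permutation. -/
def IsMono (g : O5) : Prop := ∃ e π, evenSigns e = true ∧ Equiv.Perm.sign π = 1 ∧ g = mono e π

theorem IsMono.mem {g : O5} (h : IsMono g) : g ∈ Om5 := by
  obtain ⟨e, π, he, hπ, rfl⟩ := h
  exact mono_mem he hπ

theorem unit_vectors : ∀ a : W, dt a a = 1 → ∃ (e : Fin 5 → Bool) (k : Fin 5), evenSigns e = true ∧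
    (monoFun e (cyc k) (ev 0) = a ∨ monoFun e (cyc k) (ev 0) = -a ∨
      monoFun e (cyc k) bb = a ∨ monoFun e (cyc k) bb = -a) := by
  decide +kernel

theorem exists_mono {a : W} (ha : dt a a = 1) : ∃ g : O5, IsMono g ∧
    (g * T (ev 0) (ev_one 0) * g⁻¹ = T a ha ∨ g * T bb bb_one * g⁻¹ = T a ha) := by
  obtain ⟨e, k, he, h⟩ := unit_vectors a ha
  refine ⟨mono e (cyc k), ⟨e, cyc k, he, cyc_sign k, rfl⟩, ?_⟩
  rcases h with h | h | h | h
  · exact Or.inl (conj_T _ _ _ (Or.inl h))
  · exact Or.inl (conj_T _ _ _ (Or.inr h))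
  · exact Or.inr (conj_T _ _ _ (Or.inl h))
  · exact Or.inr (conj_T _ _ _ (Or.inr h))

theorem T_mem {a : W} (ha : dt a a = 1) : T a ha ∈ Om5 := by
  obtain ⟨g, hg, h | h⟩ := exists_mono ha
  · rw [← h]; exact mul_mem (mul_mem hg.mem T_ev_zero_mem) (inv_mem hg.mem)
  · rw [← h]; exact mul_mem (mul_mem hg.mem T_bb_mem) (inv_mem hg.mem)

/-- A subgroup containing the signed permutations, `T (ev 0)` and `T bb` is everything. -/
theorem eq_top_of_gens (S : Subgroup Om5) (hm : ∀ g : Om5, IsMono g.1 → g ∈ S)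
    (h0 : (⟨_, T_ev_zero_mem⟩ : Om5) ∈ S) (hb : (⟨_, T_bb_mem⟩ : Om5) ∈ S) : S = ⊤ := by
  have := isSimpleGroup_Om5
  let R : Subgroup Om5 := Subgroup.closure {g | ∃ a, ∃ ha : dt a a = 1, g.1 = T a ha}
  have hR : R ≤ S := by
    refine (Subgroup.closure_le _).2 ?_
    rintro g ⟨a, ha, hg⟩
    obtain ⟨m, hm', h | h⟩ := exists_mono ha
    · have e : g = ⟨m, hm'.mem⟩ * ⟨_, T_ev_zero_mem⟩ * ⟨m, hm'.mem⟩⁻¹ := Subtype.ext (hg.trans h.symm)
      rw [e]; exact mul_mem (mul_mem (hm _ hm') h0) (inv_mem (hm _ hm'))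
    · have e : g = ⟨m, hm'.mem⟩ * ⟨_, T_bb_mem⟩ * ⟨m, hm'.mem⟩⁻¹ := Subtype.ext (hg.trans h.symm)
      rw [e]; exact mul_mem (mul_mem (hm _ hm') hb) (inv_mem (hm _ hm'))
  have hn : R.Normal := ⟨fun x hx g => by
    have hle : R ≤ R.comap (MulAut.conj g).toMonoidHom := by
      refine (Subgroup.closure_le _).2 ?_
      rintro y ⟨a, ha, hy⟩
      have hga : dt ((g.1 : W ≃ₗ[K] W) a) ((g.1 : W ≃ₗ[K] W) a) = 1 := by rw [dt_apply, ha]
      refine Subgroup.subset_closure ⟨_, hga, ?_⟩
      show g.1 * y.1 * g.1⁻¹ = _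
      rw [hy]; exact conj_T g.1 ha hga (Or.inl rfl)
    exact hle hx⟩
  rcases hn.eq_bot_or_eq_top with h | h
  · have h1 : (⟨_, T_ev_zero_mem⟩ : Om5) ∈ R := Subgroup.subset_closure ⟨_, ev_one 0, rfl⟩
    rw [h, Subgroup.mem_bot] at h1
    have h2 := congrArg (fun g : Om5 => ((g.1 : W ≃ₗ[K] W) (ev 1)) 1) h1
    simp only [Subgroup.coe_one, orth_one_apply] at h2
    rw [T_neg (ev_one 0) (by rw [dt_ev, if_neg (by decide)])] at h2
    exact absurd h2 (by decide +kernel)
  · exact top_le_iff.1 (h ▸ hR)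

end CfsgLib.SchurMult.O73.Five
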