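import Cfsg.Agent.Lib.SchurMult.O73.Cert
import Cfsg.Agent.Lib.Classes.OmegaSeven.Transfer
import Cfsg.Agent.Lib.ClassicalForms.Ortho.POmega
import Cfsg.Agent.Lib.ClassicalForms.Common

/-!
The isometry group of minus the sum of seven squares over three elements, the simplicity of its commutator
subgroup, and the negated reflections in vectors of norm two.
-/

set_option autoImplicit false
set_option linter.unusedSectionVars false

namespace CfsgLib.SchurMult.O73

open CfsgLib.SpSixTwo (K M8 dotK)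
open CfsgLib.OrthGen CfsgLib.Classes.OmegaSeven
open Matrix

/-- The form. -/
abbrev Q7 : QuadraticForm K V7 := negSq K

/-- Its isometry group. -/
abbrev O7 := Cfsg.isometryGroup K (⇑Q7)

/-- Its commutator subgroup. -/
abbrev Om : Subgroup O7 := Cfsg.Omega K (⇑Q7)

theorem two_ne_K : (2 : K) ≠ 0 := by decide

theorem pf_eq (x y : V7) : pf Q7 x y = dotK x y := by
  rw [pf_negSq]
  exact (show ∀ s : K, -(2 * s) = s by decide) _

theorem Q_eq (x : V7) : Q7 x = -dotK x x := negSq_apply K x

theorem dot_act (g : O7) (x y : V7) : dotK (act Q7 g x) (act Q7 g y) = dotK x y := by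
  rw [← pf_eq, ← pf_eq, pf, pf, QuadraticMap.polar, QuadraticMap.polar, ← act_add, Q_act, Q_act, Q_act]

theorem Q_of_dot {M : Matrix (Fin 7) (Fin 7) K} (h : M.transpose * M = 1) (x : V7) :
    Q7 (M *ᵥ x) = Q7 x := by
  rw [Q_eq, Q_eq]
  congr 1
  show (M *ᵥ x) ⬝ᵥ (M *ᵥ x) = x ⬝ᵥ x
  rw [Matrix.dotProduct_mulVec, ← Matrix.mulVec_transpose, Matrix.mulVec_mulVec, h, Matrix.one_mulVec]

theorem matF_transpose : ∀ j : Fin 3, (matF j).transpose * matF j = 1 := by decide +kernel

theorem matF_mul : ∀ j : Fin 3, matF j * matF (invJ j) = 1 ∧ matF (invJ j) * matF j = 1 := by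
  decide +kernel

/-- A generator as an isometry. -/
def isoG (j : Fin 3) : O7 :=
  mkIso Q7 (matF j) (matF (invJ j)) (matF_mul j).1 (matF_mul j).2 (Q_of_dot (matF_transpose j))

theorem act_isoG (j : Fin 3) (x : V7) : act Q7 (isoG j) x = matF j *ᵥ x := rfl

theorem Q_vec (d : Fin 378) : Q7 (vec d) ≠ 0 := by rw [Q_eq, vec_sq]; decide

/-- The negated identity. -/
def negOne : O7 :=
  mkIso Q7 (-1) (-1) (by simp) (by simp) fun x => by
    rw [Matrix.neg_mulVec, Matrix.one_mulVec, QuadraticMap.map_neg]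

theorem act_negOne (x : V7) : act Q7 negOne x = -x := by
  show (-1 : Matrix (Fin 7) (Fin 7) K) *ᵥ x = -x
  rw [Matrix.neg_mulVec, Matrix.one_mulVec]

/-- A negated reflection. -/
def nr (d : Fin 378) : O7 := negOne * refl Q7 (Q_vec d)

theorem act_nr (d : Fin 378) (x : V7) : act Q7 (nr d) x = dotK x (vec d) • vec d - x := by
  rw [nr, act_mul, act_negOne, act_refl, Q_eq, vec_sq, pf_eq, neg_sub,
    show ((-(2 : K))⁻¹ * dotK (vec d) x) = dotK x (vec d) by
      rw [show (-(2 : K)) = 1 by decide, inv_one, one_mul]; exact Finset.sum_congr rfl fun i _ => mul_comm _ _]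

theorem dot_smul_smul (x a : V7) (s : K) (hs : s * s = 1) : dotK x (s • a) • (s • a) = dotK x a • a := by
  have : dotK x (s • a) = s * dotK x a := by
    simp only [dotK, Pi.smul_apply, smul_eq_mul, Finset.mul_sum]
    exact Finset.sum_congr rfl fun i _ => by ring
  rw [this, smul_smul, mul_comm (s * _) s, ← mul_assoc, hs, one_mul]

theorem conj_nr (g : O7) {d e : Fin 378} (h : act Q7 g (vec d) = vec e ∨ act Q7 g (vec d) = -vec e) :
    g * nr d * g⁻¹ = nr e := by
  refine ext_act fun x => ?_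
  rw [act_mul, act_mul, act_nr, act_nr, act_sub, act_act_inv]
  have hs : act Q7 g (dotK (act Q7 g⁻¹ x) (vec d) • vec d) =
      dotK (act Q7 g⁻¹ x) (vec d) • act Q7 g (vec d) := Matrix.mulVec_smul _ _ _
  rw [hs, ← dot_act g (act Q7 g⁻¹ x) (vec d), act_act_inv]
  rcases h with h | h
  · rw [h]
  · rw [h, ← neg_one_smul K (vec e), dot_smul_smul x (vec e) (-1) (by ring)]

theorem matF_zero_apply : ∀ i k : Fin 7, matF 0 i k + (if i = k then (1 : K) else 0) = vec 0 i * vec 0 k := by
  decide +kernel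

theorem isoG_zero : isoG 0 = nr 0 := by
  refine ext_act fun x => ?_
  have h : ∀ i k : Fin 7, matF 0 i k = vec 0 i * vec 0 k - (if i = k then (1 : K) else 0) := fun i k =>
    eq_sub_of_add_eq (matF_zero_apply i k)
  rw [act_isoG, act_nr]
  funext i
  show ∑ k, matF 0 i k * x k = _
  simp only [h, sub_mul, Finset.sum_sub_distrib, ite_mul, one_mul, zero_mul, Finset.sum_ite_eq, Finset.mem_univ,
    if_true, Pi.sub_apply, Pi.smul_apply, smul_eq_mul, dotK, Finset.sum_mul]
  congr 1
  exact Finset.sum_congr rfl fun k _ => by ring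

theorem decV_encV (v : V7) : decV (encV v) = v := by
  have h : ∀ i, (v i).val < 3 := fun i => ZMod.val_lt _
  funext i
  have e : encV v / 3 ^ i.val % 3 = (v i).val := by
    have h0 := h 0; have h1 := h 1; have h2 := h 2; have h3 := h 3; have h4 := h 4; have h5 := h 5
    have h6 := h 6
    unfold encV
    fin_cases i <;> simp <;> omega
  show ((encV v / 3 ^ i.val % 3 : ℕ) : K) = v i
  rw [e, ZMod.natCast_zmod_val]

theorem encV_lt (v : V7) : encV v < 2187 := by
  have h : ∀ i, (v i).val < 3 := fun i => ZMod.val_lt _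
  have h0 := h 0; have h1 := h 1; have h2 := h 2; have h3 := h 3; have h4 := h 4; have h5 := h 5
  have h6 := h 6
  unfold encV; omega

theorem lines_full : ∀ n < 2187, dotK (decV n) (decV n) = 2 →
    decV n = vec (idxV (decV n)) ∨ decV n = -vec (idxV (decV n)) := by
  decide +kernel

theorem exists_line {v : V7} (h : dotK v v = 2) : ∃ d, v = vec d ∨ v = -vec d := by
  have := lines_full (encV v) (encV_lt v) (by rwa [decV_encV])
  rw [decV_encV] at this
  exact ⟨_, this⟩

/-- The subgroup generated by the negated reflections. -/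
def NR : Subgroup O7 := Subgroup.closure (Set.range nr)

instance nrNormal : NR.Normal where
  conj_mem x hx g := by
    have : NR ≤ NR.comap (MulAut.conj g).toMonoidHom := by
      refine (Subgroup.closure_le _).2 ?_
      rintro _ ⟨d, rfl⟩
      obtain ⟨e, he⟩ := exists_line (v := act Q7 g (vec d)) (by rw [dot_act, vec_sq])
      show g * nr d * g⁻¹ ∈ NR
      rw [conj_nr g he]
      exact Subgroup.subset_closure ⟨e, rfl⟩
    exact this hx

theorem center_eq_bot : Subgroup.center Om = ⊥ := by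
  rw [eq_bot_iff]
  intro z hz
  have hc : ∀ {g : O7}, g ∈ Om → ∀ x, act Q7 z.1 (act Q7 g x) = act Q7 g (act Q7 z.1 x) := fun {g} hg x => by
    rw [← act_mul, ← act_mul]
    exact congrArg (act Q7 · x) (congrArg Subtype.val (Subgroup.mem_center_iff.1 hz ⟨g, hg⟩).symm)
  have hsign : ∀ (e : Fin 7 → Bool) (x : V7), act Q7 (diagIso e) x = fun i => sg (e i) * x i := fun e x => by
    rw [diagIso, act_mono]; rfl
  have hoff : ∀ i j : Fin 7, j ≠ i → act Q7 z.1 (Pi.single i 1) j = 0 := by
    intro i j hji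
    obtain ⟨k, hki, hkj⟩ : ∃ k : Fin 7, k ≠ i ∧ k ≠ j :=
      (by decide : ∀ i j : Fin 7, ∃ k : Fin 7, k ≠ i ∧ k ≠ j) i j
    have h := congrFun (hc (diag_pair_mem (F := K) (Ne.symm hkj)) (Pi.single i 1)) j
    have hfix : act Q7 (diagIso fun l => unitVec j l ^^ unitVec k l) (Pi.single i (1 : K)) = Pi.single i 1 := by
      rw [hsign]
      funext l
      by_cases hl : l = i
      · subst hl; simp [unitVec, Ne.symm hji, Ne.symm hki, sg]
      · simp [Pi.single_eq_of_ne hl]
    rw [hfix, hsign] at h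
    simp only [unitVec, Ne.symm hkj, decide_true, decide_false, Bool.xor_false, sg, if_true] at h
    exact (show ∀ a : K, a = -1 * a → a = 0 by decide) _ h
  set c := fun i => act Q7 z.1 (Pi.single i 1) i
  have hz' : ∀ i, act Q7 z.1 (Pi.single i 1) = Pi.single i (c i) := fun i => funext fun j => by
    by_cases hj : j = i
    · subst hj; rw [Pi.single_eq_same]
    · rw [Pi.single_eq_of_ne hj, hoff i j hj]
  have hperm : ∀ i k : Fin 7, c i = c k := by
    intro i k
    by_cases hik : i = k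
    · rw [hik]
    obtain ⟨σ, hσ, hσi⟩ : ∃ σ : Equiv.Perm (Fin 7), Equiv.Perm.sign σ = 1 ∧ σ i = k := by
      obtain ⟨l, hli, hlk⟩ := (by decide : ∀ i j : Fin 7, ∃ l : Fin 7, l ≠ i ∧ l ≠ j) i k
      refine ⟨Equiv.swap k l * Equiv.swap i l, ?_, ?_⟩
      · rw [map_mul, Equiv.Perm.sign_swap (Ne.symm hlk), Equiv.Perm.sign_swap (Ne.symm hli)]; rfl
      · rw [Equiv.Perm.mul_apply, Equiv.swap_apply_left, Equiv.swap_apply_right]
    have hact : ∀ (l : Fin 7) (a : K), act Q7 (permHom σ) (Pi.single l a) = Pi.single (σ l) a := fun l a => by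
      show act Q7 (mono _ σ) _ = _
      rw [act_mono]
      funext m
      by_cases hm : m = σ l
      · subst hm; simp [sg]
      · simp [sg, hm, Equiv.symm_apply_eq]
    have h := hc (perm_mem (F := K) hσ) (Pi.single i 1)
    rw [hact, hz', hz', hact, hσi] at h
    have := congrFun h k
    rw [Pi.single_eq_same, Pi.single_eq_same] at this
    exact this.symm
  have hscal : ((z.1 : Matrix.GeneralLinearGroup (Fin 7) K) : Matrix (Fin 7) (Fin 7) K) = c 0 • 1 := by
    refine Matrix.ext_of_mulVec_single fun j => ?_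
    rw [show ((z.1 : Matrix.GeneralLinearGroup (Fin 7) K) : Matrix (Fin 7) (Fin 7) K) *ᵥ Pi.single j 1 =
      act Q7 z.1 (Pi.single j 1) from rfl, hz', hperm j 0, Matrix.smul_mulVec, Matrix.one_mulVec]
    funext m
    by_cases hm : m = j
    · subst hm; simp
    · simp [Pi.single_eq_of_ne hm]
  have hdet : CfsgLib.Classes.detHom Q7 z.1 = 1 := by
    have hu : commutator O7 ≤ ((CfsgLib.Classes.detHom Q7).toHomUnits).ker := Abelianization.commutator_subset_ker _
    have := congrArg Units.val (MonoidHom.mem_ker.1 (hu z.2))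
    simpa using this
  have hd : (c 0) ^ 7 = 1 := by
    have : CfsgLib.Classes.detHom Q7 z.1 = Matrix.det ((c 0) • (1 : Matrix (Fin 7) (Fin 7) K)) := by
      rw [← hscal]; simp only [CfsgLib.Classes.detHom, CfsgLib.Classes.matHom, MonoidHom.comp_apply, Matrix.coe_detMonoidHom, Units.coeHom_apply, Subgroup.coe_subtype]
    rw [this, Matrix.det_smul, Matrix.det_one, mul_one] at hdet
    simpa using hdet
  refine Subgroup.mem_bot.2 (Subtype.ext (Subtype.ext (Units.ext ?_)))
  rw [hscal, (show ∀ a : K, a ^ 7 = 1 → a = 1 by decide) _ hd, one_smul]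
  rfl

theorem isSimpleGroup_Om : IsSimpleGroup Om := by
  obtain ⟨L, hL⟩ := exists_isometry (F := K) two_ne_K
  obtain ⟨e⟩ := nonempty_omega_equiv L hL
  have := CfsgLib.ClassicalForms.isSimpleGroup_pOmega_odd (F := K) two_ne_K 3 le_rfl
  have := (CfsgLib.ClassicalForms.quotCenterCongr e).isSimpleGroup
  exact ((QuotientGroup.quotientMulEquivOfEq center_eq_bot).trans QuotientGroup.quotientBot).symm.isSimpleGroup

theorem noncomm_nr : ∃ d e, nr d * nr e * (nr d)⁻¹ * (nr e)⁻¹ ≠ 1 := by
  let f : Fin 378 → V7 → V7 := fun d x => dotK x (vec d) • vec d - x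
  obtain ⟨d, hd⟩ : ∃ d : Fin 378, f 0 (f d (vec 0)) ≠ f d (f 0 (vec 0)) := by decide +kernel
  refine ⟨0, d, fun h => hd ?_⟩
  rw [mul_inv_eq_one, mul_inv_eq_iff_eq_mul] at h
  have := congrArg (fun g => act Q7 g (vec 0)) h
  simpa [f, act_mul, act_nr] using this

theorem Om_le_commutator : Om ≤ ⁅NR, NR⁆ := by
  have hle : ⁅NR, NR⁆ ≤ Om := Subgroup.commutator_mono le_top le_top
  have := isSimpleGroup_Om
  rcases Subgroup.Normal.eq_bot_or_eq_top (H := (⁅NR, NR⁆).subgroupOf Om) inferInstance with h | h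
  · obtain ⟨d, e, hne⟩ := noncomm_nr
    have hm : nr d * nr e * (nr d)⁻¹ * (nr e)⁻¹ ∈ ⁅NR, NR⁆ :=
      Subgroup.commutator_mem_commutator (Subgroup.subset_closure ⟨d, rfl⟩) (Subgroup.subset_closure ⟨e, rfl⟩)
    have h' : (⟨_, hle hm⟩ : Om) ∈ (⁅NR, NR⁆).subgroupOf Om := hm
    rw [h, Subgroup.mem_bot] at h'
    exact absurd (congrArg Subtype.val h') hne
  · exact Subgroup.subgroupOf_eq_top.1 h

end CfsgLib.SchurMult.O73
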